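import Cfsg.Agent.H97.JmDefs
import Cfsg.Agent.H1.Card

/-!
# The normalizer of the group of order `2 ^ 10` is maximal
-/

set_option autoImplicit false

namespace Cfsg.Agent.H97.JM

open Subgroup

universe u

namespace CA

/-- The possible orders of an overgroup. -/
def tst (n : ℕ) : Bool :=
  n % 10239344640 != 0 || !ok n || !cg n 31 [5, 10] ||
    [1, 2, 33, 6352863, 4237359621, 8474719242].any fun k => n == 10239344640 * k

theorem all_tst : allD tst = true := by decide +kernel

theorem dvd_of_le {G : Type u} [Group G] {M H N : Subgroup G} (l : M ≤ H) {p d e : ℕ} (hp : 0 < p)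
    (h1 : Nat.card ↥(M ⊓ N) = p * d) (h2 : Nat.card ↥(H ⊓ N) = p * e) : d ∣ e :=
  Nat.dvd_of_mul_dvd_mul_left hp (h1 ▸ h2 ▸ card_dvd_of_le (inf_le_inf_right N l))

theorem d31 : ∀ d ≤ 10, 10239344640 / (31 * d) % 31 = 1 → d ∣ 10 → d = 5 := by decide

theorem d7a : ∀ d ≤ 360, 10239344640 / (7 * d) % 7 = 1 → d ∣ 360 → 2 ∣ d → 8 ∣ d ∨ 12 ∣ d := by
  decide +kernel

theorem d7b : ∀ e ≤ 360, 10239344640 * 6352863 / (7 * e) % 7 = 1 → e ∣ 360 →
    ¬ (8 ∣ e ∨ 12 ∣ e) := by
  decide +kernel

end CA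

theorem pCA (hALLD : ALLD) (hOK : OK.{u}) (hCONG : CONG.{u}) (hFIX : FIX.{u}) (hSM : SM.{u}) :
    CA.{u} := by
  intro G _ _ ctx A B hA cA BN BA BS sB cB irr
  have cM : Nat.card (normalizer (A : Set G)) = 10239344640 := by
    have := H1.card_sup_mul_card_inf_of_le_normalizer BN
    rw [BA, BS, card_bot, mul_one, cA, cB] at this
    exact this
  have sm := fun H => hSM G A B H hA cA BN BA BS sB cB irr
  have fx := fun x h => hFIX G A 7 x (by norm_num) h
  have AM : A ≤ normalizer (A : Set G) := le_normalizer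
  generalize normalizer (A : Set G) = M at cM sm fx AM
  refine ⟨fun e => ?_, fun H lt => ?_⟩
  · rw [e, card_top, ctx.card] at cM
    omega
  have hn : Nat.card H ∣ 86775571046077562880 := ctx.card ▸ card_subgroup_dvd_card H
  have ex : ∀ p : ℕ, p.Prime → p ∣ 10239344640 → ∃ a ∈ M, orderOf a = p := fun p hp h => by
    have := Fact.mk hp
    obtain ⟨a, ha⟩ := exists_prime_orderOf_dvd_card' (G := M) p (cM ▸ h)
    exact ⟨a, a.2, (orderOf_coe a).trans ha⟩
  have h31 : cg (Nat.card H) 31 [5, 10] = true := by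
    obtain ⟨a, aM, ha⟩ := ex 31 (by norm_num) (by norm_num)
    have hN := (ctx.big 31 10 (by simp) a ha).2
    obtain ⟨d, d1, d2, -, d4⟩ := hCONG G M 31 10 a (by norm_num) aM ha (by rw [cM]; norm_num) hN
    obtain ⟨e, e1, e2, e3, e4⟩ := hCONG G H 31 10 a (by norm_num) (lt.le aM) ha
      (fun k => absurd (k.trans hn) (by norm_num)) hN
    obtain rfl := CA.d31 d (Nat.le_of_dvd (by norm_num) d2) (cM ▸ d4) d2
    have e5 := CA.dvd_of_le lt.le (by norm_num) d1 e1
    have e6 := Nat.le_of_dvd (by norm_num) e2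
    have e7 := Nat.pos_of_dvd_of_pos e2 (by norm_num)
    obtain rfl | rfl : e = 5 ∨ e = 10 := by omega
    all_goals simp [cg, e4, Nat.mod_eq_zero_of_dvd e3]
  have t := hALLD _ CA.all_tst _ hn
  have h0 : Nat.card H % 10239344640 = 0 := Nat.mod_eq_zero_of_dvd (cM ▸ card_dvd_of_le lt.le)
  simp only [CA.tst, h0, hOK G ctx H, h31, bne_self_eq_false, Bool.not_true, Bool.false_or,
    List.any_cons, List.any_nil, Bool.or_false, Bool.or_eq_true, beq_iff_eq] at t
  have ci := H.card_mul_index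
  rw [ctx.card] at ci
  rcases t with t | t | t | t | t | t
  · exact (lt.not_ge (sm H lt.le (by omega))).elim
  · exact (lt.not_ge (sm H lt.le (by omega))).elim
  · exact (lt.not_ge (sm H lt.le (by omega))).elim
  · obtain ⟨s, sM, hs⟩ := ex 7 (by norm_num) (by norm_num)
    have hN : Nat.card (normalizer ((zpowers s : Subgroup G) : Set G)) = 7 * 360 := ctx.n7 s hs
    obtain ⟨d, d1, d2, -, d4⟩ := hCONG G M 7 360 s (by norm_num) sM hs (by rw [cM]; norm_num) hN
    obtain ⟨e, e1, e2, -, e4⟩ := hCONG G H 7 360 s (by norm_num) (lt.le sM) hs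
      (fun k => absurd (k.trans hn) (by norm_num)) hN
    refine (CA.d7b e (Nat.le_of_dvd (by norm_num) e2) (t ▸ e4) e2
      ((CA.d7a d (Nat.le_of_dvd (by norm_num) d2) (cM ▸ d4) d2 ?_).imp
        (·.trans (CA.dvd_of_le lt.le (by norm_num) d1 e1))
        (·.trans (CA.dvd_of_le lt.le (by norm_num) d1 e1)))).elim
    have f := fx s hs sM
    have f1 : Nat.card ↥(A ⊓ centralizer ({s} : Set G)) ∣ 2 ^ 10 := cA ▸ card_dvd_of_le inf_le_left
    obtain ⟨k, -, hk⟩ := (Nat.dvd_prime_pow Nat.prime_two).1 f1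
    have f2 : 2 ∣ Nat.card ↥(A ⊓ centralizer ({s} : Set G)) := by
      rw [hk] at f ⊢
      refine dvd_pow_self 2 ?_
      rintro rfl
      rw [cA] at f
      omega
    have f3 : A ⊓ centralizer ({s} : Set G) ≤ M ⊓ normalizer ((zpowers s : Subgroup G) : Set G) :=
      inf_le_inf AM (by
        rw [zpowers_eq_closure, ← centralizer_closure]
        exact centralizer_le_normalizer _)
    have f4 := f2.trans (card_dvd_of_le f3)
    omega
  · have := ctx.simple
    have i2 : H.index = 2 := by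
      rw [t] at ci
      omega
    rcases (normal_of_index_eq_two i2).eq_bot_or_eq_top with e | e
    · rw [e, card_bot] at t
      omega
    · exact e
  · refine index_eq_one.1 ?_
    rw [t] at ci
    omega

end Cfsg.Agent.H97.JM
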