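import Mathlib
import Cfsg.Agent.H41.JU3Defs
import Cfsg.Agent.H33.J4Odd1

/-! The number of conjugates of a Sylow 3-subgroup with a strongly embedded normaliser. -/

set_option autoImplicit false

namespace Cfsg.Agent.H41.JU3

open Subgroup MulAction Cfsg.Agent.H97.JM

universe u

theorem pSE : SE.{u} := by
  intro G _ _ R B H h81 hR hRB hBN hBH hC hN
  have : Fact (Nat.Prime 3) := ⟨by norm_num⟩
  obtain ⟨U, rfl⟩ := H33.J4O.exists_sylow (p := 3) (k := 3) (A := R) hR h81
  have hU : (U : Subgroup G) ≤ H := hRB.trans hBH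
  let X : SubMulAction (U : Subgroup G) (Sylow 3 G) :=
    { carrier := orbit H U \ {U}
      smul_mem' := fun c V hV => by
        obtain ⟨⟨h, rfl⟩, hn⟩ := hV
        refine ⟨⟨⟨c, hU c.2⟩ * h, mul_smul _ _ _⟩, fun e => hn ?_⟩
        have e1 : (c : G) • U = U := Sylow.smul_eq_iff_mem_normalizer.2 (le_normalizer c.2)
        exact smul_left_cancel (c : G) ((show (c : G) • h • U = U from e).trans e1.symm) }
  have free : ∀ V : X, stabilizer (U : Subgroup G) V = ⊥ := fun V => by
    rw [eq_bot_iff]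
    intro c hc
    by_contra h1
    have e1 : (c : G) • (V : Sylow 3 G) = V := congrArg Subtype.val (mem_stabilizer_iff.1 hc)
    have e2 : (c : G) ∈ (U : Subgroup G) ⊓ (V : Sylow 3 G) := by
      rw [← U.isPGroup'.inf_normalizer_sylow]
      exact ⟨c.2, Sylow.smul_eq_iff_mem_normalizer.1 e1⟩
    have hc1 : (c : G) ≠ 1 := fun e => h1 (Subtype.ext e)
    obtain ⟨V, ⟨h, rfl⟩, hn⟩ := V
    have hVH : ((h • U : Sylow 3 G) : Subgroup G) ≤ H := by
      rintro _ ⟨x, hx, rfl⟩
      exact H.mul_mem (H.mul_mem h.2 (hU hx)) (H.inv_mem h.2)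
    set V : Sylow 3 G := h • U
    have key : ∀ g ∈ (U : Subgroup G), g ≠ 1 → ∀ x ∈ (V : Subgroup G), x * g = g * x →
        x ∈ (U : Subgroup G) := fun g hg hg1 x hx e => by
      have : x ∈ (V : Subgroup G) ⊓ (U : Subgroup G) := by
        rw [← V.isPGroup'.inf_normalizer_sylow]
        exact ⟨hx, hBN (hC g hg hg1 ⟨hVH hx, mem_centralizer_singleton_iff.2 e⟩)⟩
      exact this.2
    have : Nontrivial (V : Subgroup G) := ⟨⟨⟨c, e2.2⟩, 1, fun e => hc1 (congrArg Subtype.val e)⟩⟩
    obtain ⟨z, hz⟩ := (nontrivial_iff_exists_ne (1 : center (V : Subgroup G))).1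
      V.isPGroup'.center_nontrivial
    have hz1 : (z.1 : G) ≠ 1 := fun e => hz (Subtype.ext (Subtype.ext e))
    have hzc : ∀ x ∈ (V : Subgroup G), x * z.1 = z.1 * x := fun x hx =>
      congrArg Subtype.val (mem_center_iff.1 z.2 ⟨x, hx⟩)
    have hzU := key c c.2 hc1 z.1 z.1.2 (hzc c e2.2).symm
    exact hn (Sylow.ext (V.is_maximal' U.isPGroup' fun x hx =>
      key _ hzU hz1 x hx (hzc x hx)).symm)
  have c1 := Nat.card_congr (selfEquivOrbitsQuotientProd free)
  rw [Nat.card_prod, hR] at c1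
  have c2 : Nat.card X + 1 = (orbit H U).ncard :=
    Set.ncard_sdiff_singleton_add_one (mem_orbit_self U)
  have c3 : stabilizer H U = B.subgroupOf H := by
    ext h
    rw [mem_stabilizer_iff, mem_subgroupOf]
    exact Sylow.smul_eq_iff_mem_normalizer.trans ⟨fun a => hN ⟨h.2, a⟩, fun a => hBN a⟩
  have c4 := (stabilizer H U).card_mul_index
  rw [index_stabilizer, c3, Nat.card_congr (subgroupOfEquivOfLe hBH).toEquiv] at c4
  rw [← c4, Nat.mul_div_cancel_left _ Nat.card_pos, ← c2, c1]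
  omega

end Cfsg.Agent.H41.JU3
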