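import Cfsg.Agent.H17.LPDefs
import Cfsg.Agent.H57.LpKit

/-! Project LP: classes of involutions of the model and the orbits on `A''`. -/

set_option autoImplicit false

namespace Cfsg.Agent.H57.LpInv

open Matrix Cfsg.Agent.H17.LP Cfsg.Agent.H57.LpKit

theorem z6_le : Z6 ≤ App := le_sup_left

theorem xz_mem : xx 1 5 * zz 1 5 ∈ App :=
  Subgroup.mem_sup_right (Subgroup.subset_closure ⟨1, by simp, rfl⟩)

theorem z6_mem : zz 1 2 ∈ Z6 ∧ zz 3 4 ∈ Z6 ∧ zz 2 3 ∈ Z6 := by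
  unfold Z6
  decide

/-- the conclusion -/
def Gd (n : N0) : Prop := ∃ g : N0, g * n * g⁻¹ ∈ App ∨ g * n * g⁻¹ = xx 1 5 ∨
  g * n * g⁻¹ = xx 1 5 * zz 2 3 ∨ g * n * g⁻¹ = xx 1 4 * xx 2 5 ∨
  g * n * g⁻¹ = xx 1 4 * xx 2 5 * zz 1 4

theorem Gd.conj {n : N0} (m : N0) (h : Gd (m * n * m⁻¹)) : Gd n := by
  obtain ⟨g, hg⟩ := h
  refine ⟨g * m, ?_⟩
  rwa [show g * m * n * (g * m)⁻¹ = g * (m * n * m⁻¹) * g⁻¹ by group]

theorem gd_cert {e : ℕ} {t : R × R} {g : R} {y n : N0} (h : Ok e t (alt (idx n.a)) g)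
    (h1 : y.a = dec t.1) (h2 : y.g.1 = dec t.2) (hg : n.g.1 = dec g) (hy : Gd y) : Gd n := by
  obtain ⟨m, -, e1, e2⟩ := cert h h1 h2
  have : m * y * m⁻¹ = n := N0.ext (e1.trans (altE n.alt).symm) (Subtype.ext (e2.trans hg.symm))
  refine Gd.conj m⁻¹ ?_
  rwa [← this, show m⁻¹ * (m * y * m⁻¹) * m⁻¹⁻¹ = y by group]

theorem fixed {n : N0} (h : n * n = 1) {g : R} (hg : n.g.1 = dec g) :
    dec (act g (alt (idx n.a))) = dec (alt (idx n.a)) := by
  have := congrArg N0.a h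
  rw [mul_a, one_a, hg, ← add_self_M n.a] at this
  rw [dec_act, ← altE n.alt]
  exact add_left_cancel this

theorem exT (hK : KitStmt) {n : N0} (h : n * n = 1) : ∃ g : N0, g * n * g⁻¹ ∈ T0 := by
  have : Fact (Nat.Prime 2) := ⟨Nat.prime_two⟩
  have p : IsPGroup 2 (Subgroup.zpowers n) := IsPGroup.of_card_dvd_pow (n := 1) (by
    rw [Nat.card_zpowers]
    exact orderOf_dvd_of_pow_eq_one (by simpa [sq] using h))
  obtain ⟨P, hP⟩ := p.exists_le_sylow
  let T : Sylow 2 N0 := Sylow.ofCard T0 (by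
    rw [hK.1, hK.2.2.1, Nat.factorization_mul (by norm_num) (by norm_num), Nat.Prime.factorization_pow
      Nat.prime_two, Finsupp.add_apply, Nat.factorization_eq_zero_of_not_dvd (by norm_num)]
    simp)
  obtain ⟨g, hg⟩ := MulAction.exists_smul_eq N0 P T
  refine ⟨g, ?_⟩
  change g * n * g⁻¹ ∈ (T : Subgroup N0)
  rw [← hg]
  exact Subgroup.smul_mem_pointwise_smul n (MulAut.conj g) _ (hP (Subgroup.mem_zpowers n))

theorem invN (hK : KitStmt) : InvNStmt := by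
  intro n hn
  change Gd n
  have sq : ∀ (m y : N0), y * y = 1 → m * y * m⁻¹ * (m * y * m⁻¹) = 1 := fun m y h => by
    rw [conj_mul, h, mul_one, mul_inv_cancel]
  obtain ⟨g, hg⟩ := exT hK hn
  refine Gd.conj g ?_
  have h1 := sq g n hn
  generalize g * n * g⁻¹ = y at hg h1
  have e1 := ugE (g := y.g.1) fun i j h => hg.2 i j (by simpa using h)
  obtain ⟨k1, k2⟩ := chkU _ (idx_lt y.g.1) (by
    rw [dec_mul, ← e1, dec_one]
    exact congrArg (fun n : N0 => n.g.1) h1)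
  obtain ⟨m, hm⟩ := lvc _ k1
  refine Gd.conj m ?_
  have h2 := sq m y h1
  have e2 := (hm y).2
  rw [e1, ← dec_mul, ← dec_mul, ← e1] at e2
  generalize m * y * m⁻¹ = w at h2 e2
  simp only [List.mem_cons, List.not_mem_nil, or_false] at k2
  rcases k2 with k | k | k <;> rw [k] at e2
  · obtain ⟨c1, c2⟩ := chkB _ (idx_lt w.a)
    obtain ⟨u, hu⟩ := lvc _ c1
    obtain ⟨f1, f2⟩ := hu w
    replace f1 : (u * w * u⁻¹).a = dec (act (hh (ent TB (idx w.a))) (alt (idx w.a))) := by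
      rw [dec_act, ← altE w.alt, f1]
    rw [e2, ← dec_mul, dec_mul, dec_one, mul_one, ← dec_mul, c1, dec_one] at f2
    have f3 : ∀ j, (u * w * u⁻¹).a 4 j = 0 := fun j => by
      rw [f1]
      change bt (act _ _).e j = 0
      rw [c2]
      simp [bt]
    refine ⟨u, Or.inl (z6_le ⟨fun i j h => ?_, fun i j _ => by rw [f2]⟩)⟩
    have : i = 4 ∨ j = 4 := by
      revert i j
      decide
    rcases this with rfl | rfl
    · exact f3 j
    · rw [(u * w * u⁻¹).alt.symm, f3]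
  · have c := chkC _ (idx_lt w.a) (fixed h2 e2)
    generalize cc _ = j at c
    rcases j with _ | _ | _ | j
    · exact gd_cert c (y := xx 1 5) (by decide) (by decide) e2 ⟨1, by simp⟩
    · exact gd_cert c (y := xx 1 5 * zz 1 5) (by decide) (by decide) e2 ⟨1, by simp [xz_mem]⟩
    · exact gd_cert c (y := xx 1 5 * zz 2 3) (by decide) (by decide) e2 ⟨1, by simp⟩
    · exact gd_cert c (y := xx 1 5 * zz 1 5 * zz 2 3)
        (show _ = dec ⟨16, 4, 2, 0, 1⟩ by decide) (show _ = dec x15 by decide) e2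
        ⟨1, Or.inl (by simpa using mul_mem xz_mem (z6_le z6_mem.2.2))⟩
  · have c := chkD _ (idx_lt w.a) (fixed h2 e2)
    generalize cc _ = j at c
    rcases j with _ | j
    · exact gd_cert c (y := xx 1 4 * xx 2 5) (by decide) (by decide) e2 ⟨1, by simp⟩
    · exact gd_cert c (y := xx 1 4 * xx 2 5 * zz 1 4)
        (show _ = dec ⟨8, 0, 0, 1, 0⟩ by decide) (show _ = dec x42 by decide) e2 ⟨1, by simp⟩

/-- an explicit description of `A''` -/
def PP : Subgroup N0 := ofSubmonoid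
  { carrier := {n | n ∈ J0 ∧ ∀ i : Fin 5, i ≠ 4 → n.a i 4 = n.g.1 i 4}
    one_mem' := ⟨one_mem _, fun i h => by simp [h]⟩
    mul_mem' := by
      rintro x y ⟨h1, h2⟩ ⟨h3, h4⟩
      refine ⟨mul_mem h1 h3, fun i hi => ?_⟩
      have k : ∀ z ∈ J0, ∀ i j : Fin 5, j ≠ 4 ∨ i = 4 → z.g.1 i j = (1 : M5) i j :=
        fun z hz i j h => hz.2 i j (by revert i j; decide)
      have k1 := fun i j => k x h1 i j
      have k2 := k y h3 4 4 (Or.inr rfl)
      rw [mul_a, mul_g, coe_mul', Matrix.add_apply, h2 i hi]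
      simp only [mul_apply, transpose_apply, Fin.sum_univ_five, fun j => k1 4 j (Or.inr rfl),
        k1 i 0 (by simp), k1 i 1 (by simp), k1 i 2 (by simp), k1 i 3 (by simp), k2, y.alt.2,
        h4 0 (by simp), h4 1 (by simp), h4 2 (by simp), h4 3 (by simp)]
      simp [add_comm] }

theorem app_le : App ≤ PP := by
  refine sup_le (fun n hn => ⟨⟨fun i j h => by simp at h, fun i j _ => hn.2 i j rfl⟩, fun i hi => ?_⟩)
    ((Subgroup.closure_le _).2 ?_)
  · rw [hn.1 i 4 (by simp), hn.2 i 4 rfl, one_apply_ne hi]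
  · rintro _ ⟨h, hh, rfl⟩
    have : ∀ h ∈ [1, 2, 3, 4], xx h 5 * zz h 5 ∈ J0 ∧
        ∀ i : Fin 5, i ≠ 4 → (xx h 5 * zz h 5).a i 4 = (xx h 5 * zz h 5).g.1 i 4 := by
      unfold J0
      decide
    exact this h hh

theorem app_g {n : N0} (h : n ∈ App) : n.g.1 = dec (gA (idx n.a)) := by
  obtain ⟨h1, h2⟩ := app_le h
  rw [gA_eq _ (idx_lt _), ← altE n.alt]
  ext i j
  rw [of_apply]
  split_ifs with e
  · rw [e.1, h2 i e.2]
  · exact h1.2 i j (by revert i j; decide)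

/-- representatives -/
def rep : ℕ → N0
  | 0 => 1
  | 1 => zz 1 2
  | 2 => zz 1 2 * zz 3 4
  | 3 => xx 1 5 * zz 1 5
  | _ => xx 1 5 * zz 1 5 * zz 2 3

theorem rep_eq : ∀ c < 5, (rep c).a = dec (rO c).1 ∧ (rep c).g.1 = dec (rO c).2 := by decide

theorem rep_mem (c : ℕ) : rep c ∈ App := by
  rcases c with _ | _ | _ | _ | c
  exacts [one_mem _, z6_le z6_mem.1, z6_le (mul_mem z6_mem.1 z6_mem.2.1), xz_mem,
    mul_mem xz_mem (z6_le z6_mem.2.2)]

theorem orb (k : ℕ) (hk : k < 1024) : ∃ m ∈ N1, (m * rep (cc (ent TO k)) * m⁻¹).a = dec (alt k) ∧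
    (m * rep (cc (ent TO k)) * m⁻¹).g.1 = dec (gA k) := by
  obtain ⟨h1, h2, h3⟩ := chkO k hk
  obtain ⟨m, e, h⟩ := cert h3 (rep_eq _ h2).1 (rep_eq _ h2).2
  refine ⟨m, ⟨fun i j h => by simp at h, fun i j hi => ?_⟩, h⟩
  obtain rfl : i = 4 := by
    simp only [decide_eq_false_iff_not] at hi
    omega
  rw [e]
  change bt (hh _).e j = _
  rw [h1]
  revert j
  decide

theorem orb' {n : N0} (h : n ∈ App) : ∃ m ∈ N1, n = m * rep (cc (ent TO (idx n.a))) * m⁻¹ := by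
  obtain ⟨m, hm, e1, e2⟩ := orb _ (idx_lt n.a)
  exact ⟨m, hm, N0.ext ((altE n.alt).trans e1.symm) (Subtype.ext ((app_g h).trans e2.symm))⟩

theorem nc12 (m : N0) : m * rep 1 ≠ rep 2 * m := fun h => by
  have e := congrArg N0.a h
  rw [mul_a, mul_a, (rep_eq 1 (by omega)).1, (rep_eq 2 (by omega)).1, (rep_eq 2 (by omega)).2,
    show dec (rO 2).2 = 1 from dec_one, transpose_one, mul_one, one_mul, add_comm] at e
  have e' := add_right_cancel e
  have d1 : dec (rO 1).1 = single 0 1 1 + single 1 0 1 := by decide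
  have d2 : ∀ i j, (m.g.1 * dec (rO 1).1 * m.g.1ᵀ) i j =
      m.g.1 i 0 * m.g.1 j 1 + m.g.1 i 1 * m.g.1 j 0 := fun i j => by
    simp [d1, mul_apply, Fin.sum_univ_five, single, add_comm]
  have f := fun i j => (d2 i j).symm.trans (congrFun (congrFun e' i) j)
  have pl : ∀ a b c d a' b' c' d' : F, a * b' + a' * b = 1 → c * d' + c' * d = 1 →
      a * c' + a' * c = 0 → a * d' + a' * d = 0 → False := by decide
  exact pl _ _ _ _ _ _ _ _ (f 0 1) (f 2 3) (f 0 2) (f 0 3)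

theorem nc34 (m : N0) : m * rep 3 ≠ rep 4 * m := fun h => by
  have e := congrFun (congrFun (congrArg N0.a h) 1) 2
  have g := congrArg (fun n : N0 => n.g.1) h
  have d0 : dec x15 = 1 + single 0 4 1 := by decide
  have d1 : dec (rO 3).1 = single 0 4 1 + single 4 0 1 := by decide
  have d2 : dec (rO 4).1 1 2 = 1 := by decide
  simp only [mul_g, coe_mul', (rep_eq 3 (by omega)).2, (rep_eq 4 (by omega)).2] at g
  change m.g.1 * dec x15 = dec x15 * m.g.1 at g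
  rw [d0, mul_add, add_mul, mul_one, one_mul, add_right_inj] at g
  have g1 : m.g.1 1 0 = 0 := by simpa using congrFun (congrFun g 1) 4
  have g2 : m.g.1 2 0 = 0 := by simpa using congrFun (congrFun g 2) 4
  rw [mul_a, mul_a, (rep_eq 3 (by omega)).1, (rep_eq 4 (by omega)).1, (rep_eq 4 (by omega)).2,
    show dec (rO 4).2 = _ from d0, d1, Matrix.add_apply, Matrix.add_apply, d2] at e
  simp [mul_apply, Fin.sum_univ_five, single, g1, g2, one_apply] at e

theorem rep_inj : ∀ c < 5, ∀ c' < 5, IsConj (rep c) (rep c') → c = c' := by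
  have h1 : ∀ x y : N0, IsConj x y → (x = 1 ↔ y = 1) ∧ (x.g.1 = 1 ↔ y.g.1 = 1) := fun x y h => by
    have := pr.map_isConj h
    refine ⟨⟨fun e => by simpa [e] using h.symm, fun e => by simpa [e] using h⟩,
      fun e => ?_, fun e => ?_⟩
    · rw [show pr x = 1 from Subtype.ext e, isConj_one_right] at this
      exact congrArg Subtype.val this
    · rw [show pr y = 1 from Subtype.ext e, isConj_one_left] at this
      exact congrArg Subtype.val this
  have h2 : ∀ c < 5, ∀ c' < 5, (rep c = 1 ↔ rep c' = 1) ∧ ((rep c).g.1 = 1 ↔ (rep c').g.1 = 1) →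
      c = c' ∨ (c = 1 ∧ c' = 2) ∨ (c = 2 ∧ c' = 1) ∨ (c = 3 ∧ c' = 4) ∨ (c = 4 ∧ c' = 3) := by
    have k1 : ∀ c < 5, rep c = 1 ↔ c = 0 := by decide
    have k2 : ∀ c < 5, (rep c).g.1 = 1 ↔ c < 3 := by decide
    intro c hc c' hc'
    rw [k1 c hc, k1 c' hc', k2 c hc, k2 c' hc']
    omega
  intro c hc c' hc' h
  rcases h2 c hc c' hc' (h1 _ _ h) with e | ⟨rfl, rfl⟩ | ⟨rfl, rfl⟩ | ⟨rfl, rfl⟩ | ⟨rfl, rfl⟩
  · exact e
  · obtain ⟨u, hu⟩ := h
    exact absurd hu.eq (nc12 u)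
  · obtain ⟨u, hu⟩ := h.symm
    exact absurd hu.eq (nc12 u)
  · obtain ⟨u, hu⟩ := h
    exact absurd hu.eq (nc34 u)
  · obtain ⟨u, hu⟩ := h.symm
    exact absurd hu.eq (nc34 u)

theorem cnt (hN : NrmStmt) (c : ℕ) (hc : c < 5) : {n | ∃ g ∈ N1, n = g * rep c * g⁻¹}.ncard =
    ((Finset.range 1024).filter fun k => cc (ent TO k) = c).card := by
  have mem : ∀ g ∈ N1, g * rep c * g⁻¹ ∈ App := fun g hg =>
    (Subgroup.mem_normalizer_iff.1 (hN.2.2.1 ▸ hg) _).1 (rep_mem c)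
  rw [← Set.ncard_coe_finset]
  refine Set.ncard_congr (fun n _ => idx n.a) ?_ ?_ ?_
  · rintro _ ⟨g, hg, rfl⟩
    obtain ⟨m, -, e⟩ := orb' (mem g hg)
    refine Finset.mem_coe.2 (Finset.mem_filter.2 ⟨Finset.mem_range.2 (idx_lt _), ?_⟩)
    refine rep_inj _ (chkO _ (idx_lt _)).2.1 c hc ?_
    exact (isConj_iff.2 ⟨m, e.symm⟩).trans (isConj_iff.2 ⟨g, rfl⟩).symm
  · rintro _ _ ⟨g, hg, rfl⟩ ⟨g', hg', rfl⟩ e
    refine N0.ext ?_ (Subtype.ext ?_)
    · rw [altE (N0.alt _), e, ← altE (N0.alt _)]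
    · rw [app_g (mem g hg), e, ← app_g (mem g' hg')]
  · intro k hk
    obtain ⟨h1, rfl⟩ := Finset.mem_filter.1 (Finset.mem_coe.1 hk)
    obtain ⟨m, hm, e, -⟩ := orb k (Finset.mem_range.1 h1)
    exact ⟨_, ⟨m, hm, rfl⟩, by rw [e, (alt_chk1 k (Finset.mem_range.1 h1)).1]⟩

theorem orbA (hN : NrmStmt) : OrbAStmt := by
  have c1 := cnt hN 1 (by omega)
  have c3 := cnt hN 3 (by omega)
  have c4 := cnt hN 4 (by omega)
  rw [cntO.1] at c1
  rw [cntO.2.1] at c3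
  rw [cntO.2.2] at c4
  refine ⟨fun n hn => ?_, c1, c3, c4⟩
  obtain ⟨m, hm, e⟩ := orb' hn
  generalize cc _ = c at e
  rcases c with _ | _ | _ | _ | c
  · have e' : n = m * 1 * m⁻¹ := e
    rw [mul_one, mul_inv_cancel] at e'
    exact Or.inl e'
  · exact Or.inr ⟨zz 1 2, by simp, m, hm, e⟩
  · exact Or.inr ⟨zz 1 2 * zz 3 4, by simp, m, hm, e⟩
  · exact Or.inr ⟨xx 1 5 * zz 1 5, by simp, m, hm, e⟩
  · exact Or.inr ⟨xx 1 5 * zz 1 5 * zz 2 3, by simp, m, hm, e⟩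

end Cfsg.Agent.H57.LpInv
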