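import Cfsg.Agent.H57.MPS
import Cfsg.Agent.H46.Orbit
import Cfsg.Agent.H46.Tree
import Cfsg.Agent.H46.Lane
import Cfsg.Agent.H43.Bridge

/-! A certificate checker for `Good`, over coded groups acting on coded points. -/

set_option autoImplicit false

namespace Cfsg.Agent.H57.MPS

open Subgroup MulAction Cfsg.Agent.H42 Cfsg.Agent.H46
open scoped Pointwise

/-- List lookup with a default. -/
noncomputable def nth (d : ℕ) (l : List ℕ) : ℕ → ℕ :=
  List.rec (fun _ => d) (fun a _ ih i => Nat.rec a (fun i _ => ih i) i) l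

theorem nth_prop {p : ℕ → Prop} {d : ℕ} (hd : p d) {l : List ℕ} (hl : ∀ a ∈ l, p a) (i : ℕ) :
    p (nth d l i) := by
  induction l generalizing i with
  | nil => exact hd
  | cons a l ih =>
    cases i with
    | zero => exact hl a List.mem_cons_self
    | succ i => exact ih (fun b hb => hl b (List.mem_cons_of_mem _ hb)) i

/-- Evaluate the entries of a list. -/
noncomputable def frcL (l : List ℕ) : (List ℕ → Bool) → Bool :=
  List.rec (fun k => k []) (fun a _ ih k => frc a fun a => ih fun l => k (a :: l)) l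

theorem frcL_eq (l : List ℕ) (k : List ℕ → Bool) : frcL l k = k l := by
  induction l generalizing k with
  | nil => rfl
  | cons a l ih => exact ih _

/-- Run a straight line program; new values are put in front. -/
noncomputable def slpK (O : Ops) (prog : List (List ℕ)) (k : List ℕ → Bool) : List ℕ → Bool :=
  List.rec k (fun w _ ih l => frc (O.word (nth O.one l) w) fun c => ih (c :: l)) prog

/-- The entries with the given indices. -/
noncomputable def pick (d : ℕ) (l ix : List ℕ) : List ℕ :=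
  List.rec [] (fun i _ ih => nth d l i :: ih) ix

theorem pick_prop {p : ℕ → Prop} {d : ℕ} (hd : p d) {l : List ℕ} (hl : ∀ a ∈ l, p a)
    (ix : List ℕ) : ∀ a ∈ pick d l ix, p a := by
  induction ix with
  | nil => exact fun _ h => absurd h List.not_mem_nil
  | cons i ix ih => exact List.forall_mem_cons.2 ⟨nth_prop hd hl i, ih⟩

/-- Concatenation. -/
noncomputable def cat (l l' : List ℕ) : List ℕ := List.rec l' (fun a _ ih => a :: ih) l

theorem cat_eq (l l' : List ℕ) : cat l l' = l ++ l' := by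
  induction l with
  | nil => rfl
  | cons a l ih => exact congrArg (a :: ·) ih

/-- Membership of a point in a list of points. -/
noncomputable def inP (pk : ℕ → ℕ) (l : List ℕ) (v : ℕ) : Bool :=
  frc (pk v) fun c => anyL (fun w => Nat.beq c (pk w)) l

/-- `a` maps the points of `l` into `l'`. -/
noncomputable def mapsB (pk : ℕ → ℕ) (act : ℕ → ℕ → ℕ) (l l' : List ℕ) (a : ℕ) : Bool :=
  frc a fun a => allL (fun v => inP pk l' (act a v)) l

/-- A chain of elements each of which swaps two sets fixed by the later ones. -/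
noncomputable def chainB (pk : ℕ → ℕ) (act : ℕ → ℕ → ℕ) (ok : ℕ → Bool)
    (ch : List (List ℕ × List ℕ)) : List ℕ → Bool :=
  List.rec (fun xs => List.rec true (fun _ _ _ => false) xs)
    (fun e _ ih xs => List.rec false (fun x xs _ =>
      andB (allL ok e.1) (andB (allL ok e.2) (andB (mapsB pk act e.1 e.2 x)
        (andB (mapsB pk act e.2 e.1 x) (andB (anyL (fun v => notB (inP pk e.2 v)) e.1)
          (andB (allL (mapsB pk act e.1 e.1) xs) (andB (allL (mapsB pk act e.2 e.2) xs)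
            (ih xs)))))))) xs) ch

/-- The whole certificate. -/
noncomputable def goodB (O : Ops) (pk : ℕ → ℕ) (act : ℕ → ℕ → ℕ) (ok : ℕ → Bool)
    (gens more : List ℕ) (p₀ p₁ : List (List ℕ)) (xi y₁ y₂ S₁ S₂ : List ℕ)
    (ch : List (List ℕ × List ℕ)) (ex : List ℕ → List ℕ → Bool) : Bool :=
  frcL gens fun gens => slpK O p₀ (fun L =>
    andB (allL ok S₁) (andB (allL ok S₂)
      (andB (chainB pk act ok ch (pick O.one L xi))
      (andB (allL (mapsB pk act S₁ S₁) (cat (pick O.one L xi) (pick O.one L y₁)))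
      (andB (allL (mapsB pk act S₂ S₂) (cat (pick O.one L xi) (pick O.one L y₂)))
      (andB (notB (allL (mapsB pk act S₁ S₁) gens))
      (andB (notB (allL (mapsB pk act S₂ S₂) gens))
      (andB (slpK O p₁ (fun L' => allL (fun g => anyL (O.eqB g) L') gens)
        (cat (pick O.one L y₁) (pick O.one L y₂))) (ex gens L))))))))) (cat gens more)

section

variable {O : Ops} {Γ X : Type*} [Group Γ] [MulAction Γ X] (C : Coded O Γ) {pk : ℕ → ℕ}
  (Q : Pts pk X) {act : ℕ → ℕ → ℕ} {ok : ℕ → Bool}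

theorem slpK_spec {K : Subgroup Γ} (prog : List (List ℕ)) {k : List ℕ → Bool} {l : List ℕ}
    (hl : ∀ a ∈ l, C.Mem K a) (h : slpK O prog k l = true) :
    ∃ L, (∀ a ∈ L, C.Mem K a) ∧ k L = true := by
  induction prog generalizing l with
  | nil => exact ⟨l, hl, h⟩
  | cons w prog ih =>
    refine ih (l := O.word (nth O.one l) w :: l) (List.forall_mem_cons.2 ⟨?_, hl⟩) h
    exact C.mem_wordOn w (fun j _ => nth_prop (Coded.Mem.one C K) hl j) (Coded.Mem.one C K)

theorem step_mem {K : Subgroup Γ} (prog : List (List ℕ)) {l l' : List ℕ}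
    (h : slpK O prog (fun L => allL (fun c => anyL (Nat.beq c) L) l') l = true)
    (hl : ∀ a ∈ l, C.Mem K a) : ∀ a ∈ l', C.Mem K a := fun a ha => by
  obtain ⟨L, hL, h⟩ := slpK_spec C prog hl h
  obtain ⟨b, hb, e⟩ := anyL_iff.mp (allL_iff.mp h a ha)
  exact beq_iff.mp e ▸ hL b hb

/-- The points coded by a list. -/
def tset (l : List ℕ) : Set X := {s | ∃ w ∈ l, Q.P w s}

theorem tset_finite (l : List ℕ) : (tset Q l).Finite := by
  induction l with
  | nil => exact Set.finite_empty.subset fun _ ⟨_, h, _⟩ => absurd h List.not_mem_nil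
  | cons a l ih =>
    refine ((Set.Subsingleton.finite (s := {s | Q.P a s}) fun _ h _ h' => Q.P_fun h h').union
      ih).subset ?_
    rintro s ⟨w, hw, h⟩
    rcases List.mem_cons.1 hw with rfl | hw
    · exact Or.inl h
    · exact Or.inr ⟨w, hw, h⟩

variable (hok : ∀ v, ok v = true → ∃ s, Q.P v s)
  (hact : ∀ a g v x, C.R a g → Q.P v x → Q.P (act a v) (g • x))
include hok

theorem inP_iff {l : List ℕ} (hl : allL ok l = true) {v : ℕ} {s : X} (hv : Q.P v s) :
    inP pk l v = true ↔ s ∈ tset Q l := by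
  rw [inP, frc_eq, anyL_iff]
  constructor
  · rintro ⟨w, hw, e⟩
    obtain ⟨s', hs'⟩ := hok w (allL_iff.mp hl w hw)
    exact ⟨w, hw, ((Q.key_iff hv hs').mp (beq_iff.mp e)) ▸ hs'⟩
  · rintro ⟨w, hw, e⟩
    exact ⟨w, hw, beq_iff.mpr ((Q.key_iff hv e).mpr rfl)⟩

include hact

theorem mapsB_iff {l l' : List ℕ} (hl : allL ok l = true) (hl' : allL ok l' = true) {a : ℕ} {g : Γ}
    (ha : C.R a g) : mapsB pk act l l' a = true ↔ g • tset Q l ⊆ tset Q l' := by
  rw [mapsB, frc_eq, allL_iff]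
  constructor
  · rintro h _ ⟨s, ⟨w, hw, hs⟩, rfl⟩
    exact (inP_iff Q hok hl' (hact _ _ _ _ ha hs)).mp (h w hw)
  · intro h w hw
    obtain ⟨s, hs⟩ := hok w (allL_iff.mp hl w hw)
    exact (inP_iff Q hok hl' (hact _ _ _ _ ha hs)).mpr (h ⟨s, ⟨w, hw, hs⟩, rfl⟩)

theorem maps_self {l : List ℕ} (hl : allL ok l = true) {a : ℕ} {g : Γ} (ha : C.R a g) :
    mapsB pk act l l a = true ↔ g ∈ stabilizer Γ (tset Q l) :=
  (mapsB_iff C Q hok hact hl hl ha).trans
    (mem_stabilizer_set_iff_smul_set_subset (tset_finite Q l)).symm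

theorem chain_dvd {K : Subgroup Γ} [Finite K] (ch : List (List ℕ × List ℕ)) {xs : List ℕ}
    (hx : ∀ a ∈ xs, C.Mem K a) (h : chainB pk act ok ch xs = true) :
    2 ^ ch.length ∣ Nat.card (closure {g | ∃ a ∈ xs, C.R a g}) := by
  induction ch generalizing xs with
  | nil => exact one_dvd _
  | cons e ch ih =>
    cases xs with
    | nil => exact absurd h (by simp [chainB])
    | cons x xs =>
      obtain ⟨o1, h⟩ := andB_iff.mp h
      obtain ⟨o2, h⟩ := andB_iff.mp h
      obtain ⟨m1, h⟩ := andB_iff.mp h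
      obtain ⟨m2, h⟩ := andB_iff.mp h
      obtain ⟨ne, h⟩ := andB_iff.mp h
      obtain ⟨f1, h⟩ := andB_iff.mp h
      obtain ⟨f2, h⟩ := andB_iff.mp h
      obtain ⟨g, -, hg⟩ := hx x List.mem_cons_self
      have h1 := (mapsB_iff C Q hok hact o1 o2 hg).mp m1
      have h2 := (mapsB_iff C Q hok hact o2 o1 hg).mp m2
      have e2 : g • tset Q e.2 = tset Q e.1 := (tset_finite Q e.1).eq_of_subset_of_encard_le' h2 (by
        rw [Set.encard_smul_set, ← Set.encard_smul_set g (tset Q e.1)]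
        exact Set.encard_le_encard h1)
      have e1 : g • tset Q e.1 = tset Q e.2 := (tset_finite Q e.2).eq_of_subset_of_encard_le' h1 (by
        rw [Set.encard_smul_set, ← Set.encard_smul_set g (tset Q e.2)]
        exact Set.encard_le_encard h2)
      set R := closure {g | ∃ a ∈ x :: xs, C.R a g}
      have hR : ∀ b ∈ R, (b • tset Q e.1 = tset Q e.1 ∧ b • tset Q e.2 = tset Q e.2) ∨
          (b • tset Q e.1 = tset Q e.2 ∧ b • tset Q e.2 = tset Q e.1) := by
        intro b hb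
        induction hb using closure_induction with
        | mem b hb =>
          obtain ⟨a, ha, hb⟩ := hb
          rcases List.mem_cons.1 ha with rfl | ha
          · exact Or.inr (C.R_fun hg hb ▸ ⟨e1, e2⟩)
          · exact Or.inl ⟨(maps_self C Q hok hact o1 hb).mp (allL_iff.mp f1 a ha),
              (maps_self C Q hok hact o2 hb).mp (allL_iff.mp f2 a ha)⟩
        | one => exact Or.inl ⟨one_smul _ _, one_smul _ _⟩
        | mul a b _ _ ha hb =>
          rcases ha with ha | ha <;> rcases hb with hb | hb <;> simp [mul_smul, ha, hb]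
        | inv a _ ha =>
          rcases ha with ha | ha
          · exact Or.inl ⟨inv_smul_eq_iff.2 ha.1.symm, inv_smul_eq_iff.2 ha.2.symm⟩
          · exact Or.inr ⟨inv_smul_eq_iff.2 ha.2.symm, inv_smul_eq_iff.2 ha.1.symm⟩
      have gR : g ∈ R := subset_closure ⟨x, List.mem_cons_self, hg⟩
      have hi : (stabilizer Γ (tset Q e.1)).relIndex R = 2 := by
        refine relIndex_eq_two_iff_exists_notMem_and.2 ⟨g, gR, fun hs => ?_, fun b hb => ?_⟩
        · obtain ⟨v, hv, hn⟩ := anyL_iff.mp ne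
          obtain ⟨s, hs'⟩ := hok v (allL_iff.mp o1 v hv)
          rw [(inP_iff Q hok o2 hs').mpr (e1 ▸ hs.symm ▸ ⟨v, hv, hs'⟩)] at hn
          exact absurd hn (by decide)
        · rcases hR b hb with k | k
          · exact Or.inr k.1
          · exact Or.inl (by rw [mem_stabilizer_iff, mul_smul, e1, k.2])
      have hle : closure {g | ∃ a ∈ xs, C.R a g} ≤ stabilizer Γ (tset Q e.1) ⊓ R :=
        (closure_le _).2 fun b ⟨a, ha, hb⟩ => ⟨(maps_self C Q hok hact o1 hb).mp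
          (allL_iff.mp f1 a ha), subset_closure ⟨a, List.mem_cons_of_mem _ ha, hb⟩⟩
      have := (ih (fun a ha => hx a (List.mem_cons_of_mem _ ha)) h).trans (card_dvd_of_le hle)
      rw [List.length_cons, pow_succ, ← card_mul_index ((stabilizer Γ (tset Q e.1)).subgroupOf R),
        ← relIndex, hi, ← inf_subgroupOf_right,
        Nat.card_congr (subgroupOfEquivOfLe inf_le_right).toEquiv]
      exact Nat.mul_dvd_mul_right this 2

theorem good_coded {M : Subgroup Γ} [Finite M] {m : ℕ} {gens more : List ℕ}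
    (hg : ∀ a ∈ gens, C.Mem M a) (hg' : ∀ a ∈ more, C.Mem M a)
    (hgen : ∀ H : Subgroup Γ, (∀ a ∈ gens, C.Mem H a) → M ≤ H)
    (p₀ p₁ : List (List ℕ)) (xi y₁ y₂ S₁ S₂ : List ℕ) (ch : List (List ℕ × List ℕ))
    (ex : List ℕ → List ℕ → Bool) (hM : Nat.card M = 2 ^ ch.length * m) (hm : Odd m)
    (hk : 0 < ch.length)
    (h : goodB O pk act ok gens more p₀ p₁ xi y₁ y₂ S₁ S₂ ch ex = true)
    (ho : Nat.card (Out M) = 1 ∨ (Nat.card (Out M) = 2 ∧ (allL ok S₁ = true → allL ok S₂ = true →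
      ∀ L, (∀ a ∈ L, C.Mem M a) → ex gens L = true →
        ∃ a ∈ normalizer (M : Set Γ) ⊓ (stabilizer Γ (tset Q S₁) ⊓ stabilizer Γ (tset Q S₂)),
          ∀ c ∈ M, ¬ ∀ x ∈ M, a * x * a⁻¹ = c * x * c⁻¹))) : Good M := by
  rw [goodB, frcL_eq] at h
  obtain ⟨L, hL, h⟩ := slpK_spec C p₀ (cat_eq _ _ ▸ List.forall_mem_append.2 ⟨hg, hg'⟩) h
  obtain ⟨o1, h⟩ := andB_iff.mp h
  obtain ⟨o2, h⟩ := andB_iff.mp h
  obtain ⟨hc, h⟩ := andB_iff.mp h
  obtain ⟨f1, h⟩ := andB_iff.mp h
  obtain ⟨f2, h⟩ := andB_iff.mp h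
  obtain ⟨n1, h⟩ := andB_iff.mp h
  obtain ⟨n2, h⟩ := andB_iff.mp h
  obtain ⟨hs, he⟩ := andB_iff.mp h
  rw [cat_eq, allL_iff] at f1 f2
  have pk' := pick_prop (Coded.Mem.one C M) hL
  have key : ∀ S, allL ok S = true → notB (allL (mapsB pk act S S) gens) = true →
      ¬ M ≤ stabilizer Γ (tset Q S) := fun S o n e => by
    rw [allL_iff.mpr fun a ha => by
      obtain ⟨g, h1, h2⟩ := hg a ha
      exact (maps_self C Q hok hact o h2).mpr (e h1)] at n
    exact absurd n (by decide)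
  refine good_of (Y₁ := stabilizer Γ (tset Q S₁)) (Y₂ := stabilizer Γ (tset Q S₂))
    (R := closure {g | ∃ a ∈ pick O.one L xi, C.R a g}) hM hm hk
    ((closure_le _).2 fun g ⟨a, ha, hR⟩ => ⟨(pk' xi a ha).mem hR,
      (maps_self C Q hok hact o1 hR).mp (f1 a (List.mem_append_left _ ha)),
      (maps_self C Q hok hact o2 hR).mp (f2 a (List.mem_append_left _ ha))⟩)
    (chain_dvd C Q hok hact ch (pk' xi) hc) (key _ o1 n1) (key _ o2 n2) (hgen _ fun a ha => ?_)
    (ho.imp_right fun ⟨h1, h2⟩ => ⟨h1, h2 o1 o2 L hL he⟩)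
  obtain ⟨L', hL', h'⟩ := slpK_spec C (K := M ⊓ stabilizer Γ (tset Q S₁) ⊔
      M ⊓ stabilizer Γ (tset Q S₂)) p₁ (fun b hb => by
    rw [cat_eq] at hb
    rcases List.mem_append.1 hb with hb | hb
    · obtain ⟨g, h1, h2⟩ := pk' y₁ b hb
      exact ⟨g, mem_sup_left ⟨h1, (maps_self C Q hok hact o1 h2).mp
        (f1 b (List.mem_append_right _ hb))⟩, h2⟩
    · obtain ⟨g, h1, h2⟩ := pk' y₂ b hb
      exact ⟨g, mem_sup_right ⟨h1, (maps_self C Q hok hact o2 h2).mp
        (f2 b (List.mem_append_right _ hb))⟩, h2⟩) hs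
  obtain ⟨b, hb, e⟩ := anyL_iff.mp (allL_iff.mp h' a ha)
  obtain ⟨g, -, h2⟩ := hg a ha
  obtain ⟨g', h3, h4⟩ := hL' b hb
  exact ⟨g, C.eq_of_eqB h2 h4 e ▸ h3, h2⟩

end

/-! ### Permutations -/

/-- Lanes, for the kernel. -/
noncomputable def laneK (w x i : ℕ) : ℕ := Nat.mod (Nat.shiftRight x (Nat.mul w i)) (Nat.pow 2 w)

theorem laneK_eq (w x i : ℕ) : laneK w x i = lane w x i := rfl

/-- Packing, for the kernel. -/
noncomputable def packK (w n : ℕ) (f : ℕ → ℕ) : ℕ :=
  Nat.rec (motive := fun _ => ℕ → ℕ) (fun acc => acc)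
    (fun i ih acc => frc (Nat.add (Nat.shiftLeft acc w) (f i)) ih) n 0

theorem packK_eq (w n : ℕ) (f : ℕ → ℕ) : packK w n f = pack w n f := by
  have key : ∀ acc : ℕ, Nat.rec (motive := fun _ => ℕ → ℕ) (fun acc => acc)
      (fun i ih acc => frc (Nat.add (Nat.shiftLeft acc w) (f i)) ih) n acc =
        acc * 2 ^ (w * n) + pack w n f := by
    induction n with
    | zero => intro acc; simp [pack_zero]
    | succ n ih =>
      intro acc
      refine (ih (acc <<< w + f n)).trans ?_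
      rw [pack_succ, Nat.shiftLeft_eq, Nat.mul_succ, pow_add]
      ring
  exact (key 0).trans (by simp)

/-- Permutations coded by their packed images. -/
noncomputable def opsP (w n : ℕ) : Ops where
  mul a b := frc a fun a => frc b fun b => packK w n fun i => laneK w a (laneK w b i)
  one := packK w n fun i => i
  key a := a

/-- The coding of the symmetric group. -/
noncomputable def codedP {w n : ℕ} (hw : 0 < w) (hn : n ≤ 2 ^ w) :
    Coded (opsP w n) (Equiv.Perm (Fin n)) where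
  R a g := a < 2 ^ (w * n) ∧ ∀ i : Fin n, lane w a i = g i
  R_one := by
    show packK w n (fun i => i) < _ ∧ ∀ i : Fin n, lane w (packK w n fun i => i) i = i
    rw [packK_eq]
    exact ⟨pack_lt fun i hi => hi.trans_le hn, fun i => lane_pack_lt (fun i hi => hi.trans_le hn) i.2⟩
  R_mul {a b g h} h1 h2 := by
    show packK w n (fun i => lane w a (lane w b i)) < _ ∧
      ∀ i : Fin n, lane w (packK w n fun i => lane w a (lane w b i)) i = g (h i)
    rw [packK_eq]
    exact ⟨pack_lt fun i _ => lane_lt _ _ _, fun i => by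
      rw [lane_pack_lt (fun i _ => lane_lt _ _ _) i.2, h2.2, h1.2]⟩
  key_iff {a b g h} h1 h2 := by
    refine ⟨fun (e : a = b) => Equiv.ext fun i => Fin.ext (by rw [← h1.2, ← h2.2, e]),
      fun e => eq_of_lane hw fun i => ?_⟩
    by_cases hi : i < n
    · exact (h1.2 ⟨i, hi⟩).trans (e ▸ (h2.2 ⟨i, hi⟩).symm)
    · exact (lane_eq_zero_of_lt h1.1 (not_lt.1 hi)).trans
        (lane_eq_zero_of_lt h2.1 (not_lt.1 hi)).symm

/-- Points coded by themselves. -/
def ptsP (n : ℕ) : Pts (fun v => v) (Fin n) where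
  P v x := v = x
  key_iff {_ _ _ _} h1 h2 := by rw [h1, h2, Fin.val_inj]

/-- The code of a net. -/
noncomputable def netC (w n : ℕ) (o : H43.Net) : ℕ := packK w n o.pt

/-- The codes of a list of nets. -/
noncomputable def netsC (w n : ℕ) (E : List H43.Net) : List ℕ :=
  List.rec [] (fun o _ ih => netC w n o :: ih) E

theorem netsC_eq (w n : ℕ) (E : List H43.Net) : netsC w n E = E.map (netC w n) := by
  induction E with
  | nil => rfl
  | cons o E ih => exact congrArg (netC w n o :: ·) ih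

/-- `a` and `b` code inverse permutations. -/
noncomputable def permB (w n a b : ℕ) : Bool :=
  andB (ltB a (Nat.pow 2 (Nat.mul w n)))
    (allB (fun i => andB (ltB (laneK w a i) n) (Nat.beq (laneK w b (laneK w a i)) i)) n)

/-- An outer automorphism preserving the two sets. -/
noncomputable def outB (w n : ℕ) (S₁ S₂ pts : List ℕ) (a ai : ℕ) (ws hs ts : List ℕ)
    (mi b₀ b₁ : ℕ) (far : ℕ → Bool) (gens L : List ℕ) : Bool :=
  andB (permB w n a ai) (andB (permB w n ai a)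
    (andB (allL (fun g => frc ((opsP w n).mul ((opsP w n).mul a g) ai) fun c =>
      anyL (Nat.beq c) (pick (opsP w n).one L ws)) gens)
    (andB (mapsB (fun v => v) (laneK w) S₁ S₁ a) (andB (mapsB (fun v => v) (laneK w) S₂ S₂ a)
    (andB (ltB b₀ n) (frcL (pick (opsP w n).one L hs) fun hs =>
      andB (allL (fun h => Nat.beq (laneK w h b₀) b₀) hs)
      (andB (allB (fun i => orB (Nat.beq i b₀) (anyL (fun h => notB (Nat.beq (laneK w h i) i)) hs)) n)
      (andB (allL (fun b => anyL (fun t => Nat.beq (laneK w t b₀) b) (pick (opsP w n).one L ts))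
        (b₁ :: pts))
      (frc ((opsP w n).mul (nth (opsP w n).one L mi) a) fun d =>
        andB (allL (fun b => Nat.beq (laneK w d b) b) pts)
          (andB (ltB b₁ n) (far (laneK w d b₁))))))))))))

/-- Elements of `H` fixing `pts` do not move `b₁` far. -/
def Near {n : ℕ} (H : Subgroup (Equiv.Perm (Fin n))) (pts : List ℕ) (b₁ : ℕ) (far : ℕ → Bool) :
    Prop :=
  ∀ g ∈ H, (∀ i : Fin n, (i : ℕ) ∈ pts → g i = i) → ∀ i : Fin n, (i : ℕ) = b₁ → far (g i) = false

theorem near_step {n b b₁ : ℕ} {H : Subgroup (Equiv.Perm (Fin n))} {pts : List ℕ} {far : ℕ → Bool}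
    (hb : b < n) (h : Near (H ⊓ stabilizer (Equiv.Perm (Fin n)) (⟨b, hb⟩ : Fin n)) pts b₁ far) :
    Near H (b :: pts) b₁ far := fun g hg hf =>
  h g ⟨hg, hf ⟨b, hb⟩ List.mem_cons_self⟩ fun i hi => hf i (List.mem_cons_of_mem _ hi)

theorem near_orbit {n b : ℕ} {H : Subgroup (Equiv.Perm (Fin n))} {E : List H43.Net} {ws : List ℕ}
    {t : H43.Ch} (h : (H43.Ch.cons b ws t).Exact n E H) : Near H [] b fun v =>
      notB (H43.tb (H43.orb (H43.evalW H43.F1 E) (H43.Ch.cons b ws t).gens (Nat.shiftLeft 1 b)) v) := by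
  rintro g hg - i rfl
  have : g i ∈ orbit H i := ⟨⟨g, hg⟩, rfl⟩
  rw [h.orbit i.2, H43.mem_pset, ← H43.tb_eq] at this
  simp only [this]
  rfl

theorem near_base {n : ℕ} {H : Subgroup (Equiv.Perm (Fin n))} {pts : List ℕ}
    (h : H43.IsBase n H pts) (b : ℕ) : Near H pts b fun v => notB (Nat.beq v b) := by
  rintro g hg hf i rfl
  simp only [h g hg hf, Equiv.Perm.one_apply, Nat.beq_refl]
  rfl

section perm

variable {w n : ℕ} (hw : 0 < w) (hn : n ≤ 2 ^ w)

theorem R_net {o : H43.Net} (ho : o.ok n = true) : (codedP hw hn).R (netC w n o) (o.toPerm n) := by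
  have h1 : ∀ i < n, o.pt i < 2 ^ w := fun i hi =>
    ((H43.Net.pt_eq ho ⟨i, hi⟩).trans_lt (Fin.is_lt _)).trans_le hn
  show packK w n o.pt < _ ∧ ∀ i : Fin n, lane w (packK w n o.pt) i = _
  rw [packK_eq]
  exact ⟨pack_lt h1, fun i => by rw [lane_pack_lt h1 i.2, H43.Net.pt_eq ho]⟩

theorem exists_perm {a b : ℕ} (h1 : permB w n a b = true) (h2 : permB w n b a = true) :
    ∃ g, (codedP hw hn).R a g ∧ (codedP hw hn).R b g⁻¹ := by
  obtain ⟨a1, a2⟩ := andB_iff.mp h1
  obtain ⟨b1, b2⟩ := andB_iff.mp h2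
  have a3 := fun i : Fin n => andB_iff.mp (of_allB a2 i.2)
  have b3 := fun i : Fin n => andB_iff.mp (of_allB b2 i.2)
  exact ⟨⟨fun i => ⟨lane w a i, ltB_iff.mp (a3 i).1⟩, fun i => ⟨lane w b i, ltB_iff.mp (b3 i).1⟩,
    fun i => Fin.ext (beq_iff.mp (a3 i).2), fun i => Fin.ext (beq_iff.mp (b3 i).2)⟩,
    ⟨ltB_iff.mp a1, fun _ => rfl⟩, ltB_iff.mp b1, fun _ => rfl⟩

theorem R_net' {o : H43.Net} (ho : o.ok n = true) {c : ℕ}
    (h : andB (ltB c (Nat.pow 2 (Nat.mul w n))) (allB (fun i => Nat.beq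
      (o.app H43.F1 (Nat.shiftLeft 1 i)) (Nat.shiftLeft 1 (laneK w c i))) n) = true) :
    (codedP hw hn).R c (o.toPerm n) := by
  obtain ⟨h1, h2⟩ := andB_iff.mp h
  refine ⟨ltB_iff.mp h1, fun i => ?_⟩
  have h3 := (beq_iff.mp (of_allB h2 i.2)).symm.trans
    ((H43.Net.mov_app (H43.rep_F1 n) ho _).eq_single i)
  exact Nat.pow_right_injective le_rfl ((Nat.one_shiftLeft _).symm.trans h3)

theorem good_perm' {M : Subgroup (Equiv.Perm (Fin n))} {gens more : List ℕ}
    (hg : ∀ a ∈ gens, (codedP hw hn).Mem M a) (hg' : ∀ a ∈ more, (codedP hw hn).Mem M a)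
    (hgen : ∀ H : Subgroup (Equiv.Perm (Fin n)), (∀ a ∈ gens, (codedP hw hn).Mem H a) → M ≤ H)
    {m b₁ : ℕ} {pts : List ℕ} {far : ℕ → Bool} (hB : Near M pts b₁ far)
    (p₀ p₁ : List (List ℕ)) (xi y₁ y₂ S₁ S₂ : List ℕ)
    (ch : List (List ℕ × List ℕ)) (a ai : ℕ) (ws hs ts : List ℕ) (mi b₀ : ℕ)
    (hM : Nat.card M = 2 ^ ch.length * m) (hm : Odd m) (hk : 0 < ch.length)
    (h : goodB (opsP w n) (fun v => v) (laneK w) (fun v => ltB v n) gens more p₀ p₁ xi y₁ y₂
      S₁ S₂ ch (outB w n S₁ S₂ pts a ai ws hs ts mi b₀ b₁ far) = true)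
    (ho : Nat.card (Out M) = 2) : Good M := by
  have hok : ∀ v, ltB v n = true → ∃ s, (ptsP n).P v s := fun v hv => ⟨⟨v, ltB_iff.mp hv⟩, rfl⟩
  have hact : ∀ a g v x, (codedP hw hn).R a g → (ptsP n).P v x →
      (ptsP n).P (laneK w a v) (g • x) := fun a g v x h1 (h2 : v = x) => by
    subst h2
    exact h1.2 x
  refine good_coded (codedP hw hn) (ptsP n) hok hact hg hg' hgen p₀ p₁ xi y₁ y₂ S₁ S₂ ch _ hM hm hk
    h (Or.inr ⟨ho, fun o1 o2 L hL he => ?_⟩)
  obtain ⟨q1, he⟩ := andB_iff.mp he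
  obtain ⟨q2, he⟩ := andB_iff.mp he
  obtain ⟨q3, he⟩ := andB_iff.mp he
  obtain ⟨q4, he⟩ := andB_iff.mp he
  obtain ⟨q5, he⟩ := andB_iff.mp he
  obtain ⟨q6, he⟩ := andB_iff.mp he
  rw [frcL_eq] at he
  obtain ⟨q7, he⟩ := andB_iff.mp he
  obtain ⟨q8, he⟩ := andB_iff.mp he
  obtain ⟨q9, he⟩ := andB_iff.mp he
  obtain ⟨q10, he⟩ := andB_iff.mp he
  obtain ⟨q11, q12⟩ := andB_iff.mp he
  obtain ⟨α, r1, r2⟩ := exists_perm hw hn q1 q2
  have pk' := pick_prop (Coded.Mem.one (codedP hw hn) M) hL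
  obtain ⟨μ, hμ, r3⟩ := nth_prop (Coded.Mem.one (codedP hw hn) M) hL mi
  have r4 := (codedP hw hn).R_mul r3 r1
  refine ⟨α, ⟨mem_normalizer_fintype fun x hx => ?_, (maps_self _ _ hok hact o1 r1).mp q4,
    (maps_self _ _ hok hact o2 r1).mp q5⟩, fun c hc hx => ?_⟩
  · refine hgen (M.comap (MulAut.conj α).toMonoidHom) (fun g hg' => ?_) hx
    obtain ⟨γ, -, r⟩ := hg g hg'
    obtain ⟨u, hu, e⟩ := anyL_iff.mp (allL_iff.mp q3 g hg')
    exact ⟨γ, (pk' ws u hu).mem (beq_iff.mp e ▸ (codedP hw hn).R_mul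
      ((codedP hw hn).R_mul r1 r) r2), r⟩
  · have hd : ∀ x ∈ M, c⁻¹ * α * x = x * (c⁻¹ * α) := fun x h => by
      calc _ = c⁻¹ * (α * x * α⁻¹) * α := by group
        _ = _ := by rw [hx x h]; group
    let b : Fin n := ⟨b₀, ltB_iff.mp q6⟩
    have h1 : (c⁻¹ * α) b = b := by
      rcases orB_iff.mp (of_allB q8 ((c⁻¹ * α) b).2) with e | e
      · exact Fin.ext (beq_iff.mp e)
      · obtain ⟨t, ht, e⟩ := anyL_iff.mp e
        obtain ⟨τ, hτ, r⟩ := pk' hs t ht
        have h2 : τ b = b := Fin.ext ((r.2 b).symm.trans (beq_iff.mp (allL_iff.mp q7 t ht)))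
        have h3 : τ ((c⁻¹ * α) b) = (c⁻¹ * α) b := by
          rw [← Equiv.Perm.mul_apply, ← hd τ hτ, Equiv.Perm.mul_apply, h2]
        rw [notB_iff, laneK_eq, r.2, h3] at e
        exact absurd e (by simp)
    have h2 : ∀ i : Fin n, (i : ℕ) ∈ b₁ :: pts → (μ * c) i = (μ * α) i := fun i hi => by
      obtain ⟨t, ht, e⟩ := anyL_iff.mp (allL_iff.mp q9 i hi)
      obtain ⟨τ, hτ, r⟩ := pk' ts t ht
      have h2 : τ b = i := Fin.ext ((r.2 b).symm.trans (beq_iff.mp e))
      have h3 : (c⁻¹ * α) i = i := by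
        rw [← h2, ← Equiv.Perm.mul_apply, hd τ hτ, Equiv.Perm.mul_apply, h1]
      rw [show μ * α = μ * c * (c⁻¹ * α) by group, Equiv.Perm.mul_apply (μ * c), h3]
    have h3 := hB _ (mul_mem hμ hc) (fun i hi => (h2 i (List.mem_cons_of_mem _ hi)).trans
      (Fin.ext ((r4.2 i).symm.trans (beq_iff.mp (allL_iff.mp q10 i hi))))) ⟨b₁, ltB_iff.mp q11⟩ rfl
    rw [h2 _ List.mem_cons_self, ← r4.2] at h3
    exact absurd (q12.symm.trans h3) (by decide)

include hw hn in
theorem good_perm {E : List H43.Net} (hE : H43.okE n E = true) {m b₁ : ℕ} {pts : List ℕ}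
    {far : ℕ → Bool} (hB : Near (H43.grp n E) pts b₁ far) (p₀ p₁ : List (List ℕ))
    (xi y₁ y₂ S₁ S₂ : List ℕ) (ch : List (List ℕ × List ℕ)) (a ai : ℕ) (ws hs ts : List ℕ)
    (mi b₀ : ℕ) (hM : Nat.card (H43.grp n E) = 2 ^ ch.length * m) (hm : Odd m) (hk : 0 < ch.length)
    (h : goodB (opsP w n) (fun v => v) (laneK w) (fun v => ltB v n) (netsC w n E) [] p₀ p₁ xi y₁ y₂
      S₁ S₂ ch (outB w n S₁ S₂ pts a ai ws hs ts mi b₀ b₁ far) = true)
    (ho : Nat.card (Out (H43.grp n E)) = 2) : Good (H43.grp n E) := by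
  have hR : ∀ o ∈ E, (codedP hw hn).R (netC w n o) (o.toPerm n) := fun o ho =>
    R_net hw hn (H43.okE_iff.1 hE o ho)
  refine good_perm' hw hn (fun a ha => ?_) (fun _ h => absurd h List.not_mem_nil) (fun H hH =>
    H43.grp_le_iff.2 fun o ho => (hH _ (netsC_eq w n E ▸ List.mem_map_of_mem ho)).mem (hR o ho))
    hB p₀ p₁ xi y₁ y₂ S₁ S₂ ch a ai ws hs ts mi b₀ hM hm hk h ho
  rw [netsC_eq] at ha
  obtain ⟨o, ho, rfl⟩ := List.mem_map.1 ha
  exact ⟨_, H43.toPerm_mem_grp ho, hR o ho⟩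

end perm

end Cfsg.Agent.H57.MPS
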