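import Mathlib
import Cfsg.Agent.H45.OnDefs

/-! Two involutions generate a dihedral group. -/

set_option autoImplicit false

namespace Cfsg.Agent.H57.OnDih

open Cfsg.Agent.H45.On

universe u

theorem dih : DihStmt.{u} := by
  intro G _ _ a b ha hb
  set c := a * b with hc
  have h1 : c * a = a * c⁻¹ := by
    rw [hc, mul_inv_rev, inv_eq_of_mul_eq_one_right ha, inv_eq_of_mul_eq_one_right hb, mul_assoc]
  have h2 : ∀ i : ℕ, c ^ i * a = a * (c ^ i)⁻¹ := fun i => by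
    rw [← inv_pow]
    exact (SemiconjBy.pow_right (a := a) (x := c⁻¹) (y := c) h1.symm i).eq.symm
  have h3 : ∀ i : ℕ, c ^ (i + i) * a = c ^ i * a * (c ^ i)⁻¹ := fun i => by
    rw [pow_add, mul_assoc, mul_assoc, ← h2]
  have h4 : c * b = a := by rw [hc, mul_assoc, hb, mul_one]
  have h5 : a * c = b := by rw [hc, ← mul_assoc, ha, one_mul]
  have ho := pow_orderOf_eq_one c
  rcases Nat.even_or_odd (orderOf c) with ⟨j, hj⟩ | ⟨i, hi⟩
  · right
    have hp := orderOf_pos c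
    have w2 : c ^ j * c ^ j = 1 := by rw [← pow_add, ← hj, ho]
    have wa : c ^ j * a = a * c ^ j := by rw [h2, inv_eq_of_mul_eq_one_right w2]
    have wb : c ^ j * b = b * c ^ j := by
      rw [← h5, ← mul_assoc, wa, mul_assoc, mul_assoc, ← pow_succ, ← pow_succ']
    have wi : H45.On.Inv (c ^ j) := ⟨w2, pow_ne_one_of_lt_orderOf (by omega) (by omega)⟩
    rcases Nat.even_or_odd j with ⟨i, rfl⟩ | ⟨i, rfl⟩
    · exact ⟨_, c ^ i, wi, wa, wb, .inl (h3 i)⟩
    · exact ⟨_, c ^ i, wi, wa, wb, .inr (by rw [← h3, pow_succ, mul_assoc, h4, two_mul])⟩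
  · refine .inl ⟨c ^ i, ?_⟩
    rw [← h3, ← two_mul, ← h4, ← mul_assoc, ← pow_succ, ← hi, ho, one_mul]

end Cfsg.Agent.H57.OnDih
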