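import Cfsg.Agent.H72.QA4

/-!
The structure of an edge with critical distance one.
-/

set_option autoImplicit false

namespace Cfsg.Agent.H57.QA

open Cfsg Cfsg.Agent.H98 Cfsg.Agent.H84 Cfsg.Agent.H71.NG Cfsg.Agent.H72.NG Subgroup
open Cfsg.Agent.H71.QA
open scoped commutatorElement

variable {G : Type*} [Group G] [Finite G]

omit [Finite G] in
theorem cj_eq_iff {g h : G} {X : Subgroup G} :
    cj g X = cj h X ↔ h⁻¹ * g ∈ normalizer (X : Set G) := by
  constructor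
  · intro e
    exact mem_normalizer_of_cj_eq (by rw [← cj_cj, e, cj_inv_cj])
  · intro e
    have := congrArg (cj h) (cj_eq_of_mem_normalizer e)
    rwa [cj_cj, mul_inv_cancel_left] at this

omit [Finite G] in
theorem four_two {W : Subgroup G} (h4 : Nat.card W = 4) {a : G} (ha : a ∈ W) (a1 : a ≠ 1) :
    ∃ b ∈ W, b ≠ 1 ∧ b ≠ a := by
  by_contra hc
  push Not at hc
  obtain ⟨e, -, hi, he, -⟩ := exists_perm h4
  have h0 := hc _ (he 0).1 (he 0).2
  have h1 := hc _ (he 1).1 (he 1).2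
  exact absurd (hi (h0.trans h1.symm)) (by decide)

section vertex

variable {P W : Subgroup G} (v : Vx P)
include v

omit [Finite G] in
theorem Z_comm {a b : G} (ha : a ∈ Zv P) (hb : b ∈ Zv P) : a * b = b * a :=
  ea_le_c v.ea hb a ha

omit [Finite G] in
theorem ln_eq {W' : Subgroup G} (h : Ln P W) (h' : Ln P W') {x : G} (hx : x ∈ W) (hx' : x ∈ W')
    (x1 : x ≠ 1) : W = W' := by
  by_contra e
  exact x1 (mem_bot.1 (v.disj W W' h h' e ▸ (⟨hx, hx'⟩ : x ∈ W ⊓ W')))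

omit [Finite G] in
theorem res_norm (h : Ln P W) : resOf 2 P ≤ normalizer (Cp P W : Set G) :=
  fun _ hg => norm_Cp (resOf_le _ _ hg) (h.2.2.1 hg)

theorem O_Cp_le (h : Ln P W) : pCoreOf 2 (Cp P W) ≤ pCoreOf 2 P :=
  (pCoreOf_le_pCoreOf_of_normal (Cp_le_res P W) (res_norm v h)).trans
    (pCoreOf_le_pCoreOf_of_normal (resOf_le _ _) (le_normalizer_resOf 2 P))

theorem ln_le_O (h : Ln P W) : W ≤ pCoreOf 2 (Cp P W) := by
  obtain ⟨T, hT⟩ := exists_sylIn 2 P
  obtain ⟨d, e⟩ := v.dc T W hT h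
  exact e.ge.trans (H82.NG.dc_WR d)

theorem ln_le_wOf (h : Ln P W) : W ≤ wOf (Cp P W) := by
  obtain ⟨T, hT⟩ := exists_sylIn 2 P
  obtain ⟨d, e⟩ := v.dc T W hT h
  have h1 := H82.NG.dc_W_le_comm d
  have h2 := H82.NG.dc_RC d
  rw [e] at h1 h2
  exact h1.trans (le_wOf (H51.isEA_of_le v.ea h.1) (ln_le_O v h) h2)

theorem Cp_not_cent (h : Ln P W) {x : G} (hx : x ∈ W) (x1 : x ≠ 1) :
    ¬ Cp P W ≤ centralizer {x} := by
  obtain ⟨T, hT⟩ := exists_sylIn 2 P
  obtain ⟨d, e⟩ := v.dc T W hT h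
  exact H82.NG.dc_not_cent d (e.symm ▸ hx) x1

theorem mem_O_of_cent (h : Ln P W) {y : G} (hy : y ∈ Cp P W)
    (hc : y ∈ centralizer (W : Set G)) : y ∈ pCoreOf 2 (Cp P W) := by
  by_contra hn
  obtain ⟨x, hx, x1⟩ := exists_ne_one (four_ne_bot h.2.1)
  exact Cp_not_cent v h hx x1 (((v.c3 W h).le_of_not_mem ((O_Cp_le v h).trans
    (v.cent.trans (centralizer_anti h.1))) hy hn hc).trans (c_le_c1 hx))

/-- The components of distinct lines commute once their cores are the lines. -/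
theorem Cp_comm {W' : Subgroup G} (h : Ln P W) (h' : Ln P W') (hne : W ≠ W')
    (e : pCoreOf 2 (Cp P W) = W) (e' : pCoreOf 2 (Cp P W') = W') :
    Cp P W ≤ centralizer (Cp P W' : Set G) := by
  have n1 := (Cp_le_res P W).trans (res_norm v h')
  have n2 := (Cp_le_res P W').trans (res_norm v h)
  refine commutator_eq_bot_iff_le_centralizer.1 (le_bot_iff.1 fun y hy => ?_)
  have h1 := commutator_le_left_of_le_normalizer n2 hy
  have h2 := commutator_le_right_of_le_normalizer n1 hy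
  have h3 := mem_O_of_cent v h h1 (Cp_le_cent h hne h2)
  have h4 := mem_O_of_cent v h' h2 (Cp_le_cent h' hne.symm h1)
  rw [e] at h3
  rw [e'] at h4
  exact v.disj W W' h h' hne ▸ (⟨h3, h4⟩ : y ∈ W ⊓ W')

end vertex

section edge

variable {P P' W W' : Subgroup G} (e : Ed P P')
include e

omit [Finite G] in
theorem Z_le : Zv P ≤ P ⊓ P' := e.v.le.trans (pCoreOf_le_of_sylIn e.syl)

omit [Finite G] in
theorem Z_le' : Zv P' ≤ P ⊓ P' := e.v'.le.trans (pCoreOf_le_of_sylIn e.syl')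

omit [Finite G] in
theorem exists_pair (hb : ¬ Zv P ≤ pCoreOf 2 P') :
    ∃ W W' : Subgroup G, Ln P W ∧ Ln P' W' ∧ ¬ W ≤ centralizer (W' : Set G) := by
  by_contra hc
  push Not at hc
  refine hb fun z hz => e.v'.faith z (Z_le e hz).2 fun W' h' => ?_
  exact (e.v.gen.trans (sup_le (iSup₂_le fun W h => hc W W' h h') (inf_le_right.trans
    (centralizer_anti (h'.1.trans ((Z_le' e).trans inf_le_left)))))) hz

omit [Finite G] in
/-- The lines on the two sides normalize each other. -/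
theorem ln_norm (h : Ln P W) (h' : Ln P' W') : W ≤ normalizer (W' : Set G) := by
  intro a ha
  by_contra hn
  have aZ := h.1 ha
  have hP' : ∀ {y}, y ∈ Zv P → y ∈ P' := fun hy => (Z_le e hy).2
  have hP : ∀ {y}, y ∈ W' → y ∈ P := fun hy => (Z_le' e (h'.1 hy)).1
  have h2 : Ln P' (cj a W') := h'.cj_mem (hP' aZ)
  have hne : W' ≠ cj a W' := fun x => hn (mem_normalizer_of_cj_eq x.symm)
  have dis := e.v'.disj _ _ h' h2 hne
  -- the diagonal lies in `Z`
  have dZ : ∀ w ∈ W', w * (a * w⁻¹ * a⁻¹) ∈ Zv P := fun w hw => by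
    have := mul_mem (conj_mem_of_mem_normalizer (norm_Zv P (le_normalizer (hP hw))) aZ)
      (inv_mem aZ)
    simpa only [mul_assoc] using this
  -- an element of `Z` normalizing `W'` centralizes it
  have key : ∀ y ∈ Zv P, y ∈ normalizer (W' : Set G) → y ∈ centralizer (W' : Set G) := by
    intro y hy hyn w hw
    have h3 := Z_comm e.v hy (dZ w hw)
    have h4 := Z_comm e.v hy aZ
    have h5 : w⁻¹ * (y * w * y⁻¹) = a * (w⁻¹ * (y * w * y⁻¹)) * a⁻¹ := by
      calc _ = w⁻¹ * (y * (w * (a * w⁻¹ * a⁻¹))) * (a * w * a⁻¹ * y⁻¹) := by group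
        _ = w⁻¹ * (w * (a * w⁻¹ * a⁻¹) * y) * (a * w * a⁻¹ * y⁻¹) := by rw [h3]
        _ = a * w⁻¹ * a⁻¹ * (y * a) * w * (y * a)⁻¹ := by group
        _ = a * w⁻¹ * a⁻¹ * (a * y) * w * (a * y)⁻¹ := by rw [h4]
        _ = _ := by group
    have h6 := mul_mem (inv_mem hw) (conj_mem_of_mem_normalizer hyn hw)
    have h7 : w⁻¹ * (y * w * y⁻¹) ∈ W' ⊓ cj a W' := ⟨h6, h5 ▸ conj_mem_map_conj h6⟩
    rw [dis, mem_bot, inv_mul_eq_one, eq_comm, mul_inv_eq_iff_eq_mul] at h7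
    exact h7.symm
  have a1 : a ≠ 1 := fun x => hn (x ▸ one_mem _)
  obtain ⟨c, hc, c1, hcn⟩ : ∃ c ∈ W, c ≠ 1 ∧ c ∈ normalizer (W' : Set G) := by
    obtain ⟨b, hb, b1, ba⟩ := four_two h.2.1 ha a1
    rcases e.v'.two _ _ _ h' h2 (h'.cj_mem (hP' (h.1 hb))) with x | x | x
    · exact absurd x hne
    · exact ⟨b, hb, b1, mem_normalizer_of_cj_eq x.symm⟩
    · exact ⟨b⁻¹ * a, mul_mem (inv_mem hb) ha, fun x => ba (inv_mul_eq_one.1 x), cj_eq_iff.1 x⟩
  have hcc := key c (h.1 hc) hcn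
  have nW : ∀ w ∈ W', w ∈ normalizer (W : Set G) := fun w hw =>
    mem_normalizer_of_cj_eq (ln_eq e.v (h.cj_mem (hP hw)) h
      (conj_eq_iff.2 (hcc w hw) ▸ (conj_mem_map_conj hc : w * c * w⁻¹ ∈ cj w W)) hc c1)
  have dW : ∀ w ∈ W', w * (a * w⁻¹ * a⁻¹) ∈ W ⊓ Zv P' := fun w hw => mem_inf.2 ⟨by
    have := mul_mem (conj_mem_of_mem_normalizer (nW w hw) ha) (inv_mem ha)
    simpa only [mul_assoc] using this, mul_mem (h'.1 hw) (h2.1 (conj_mem_map_conj (inv_mem hw)))⟩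
  have d1 : ∀ w ∈ W', w * (a * w⁻¹ * a⁻¹) = 1 → w = 1 := fun w hw x => by
    have : w ∈ W' ⊓ cj a W' := mem_inf.2 ⟨hw, by
      rw [eq_inv_of_mul_eq_one_left x]
      exact inv_mem (conj_mem_map_conj (inv_mem hw))⟩
    rwa [dis, mem_bot] at this
  obtain ⟨u, hu, u1⟩ := exists_ne_one (four_ne_bot h'.2.1)
  obtain ⟨w, hw, w1, wu⟩ := four_two h'.2.1 hu u1
  have := eq_of_card_four h.2.1 (inf_le_left : W ⊓ Zv P' ≤ W) (dW u hu) (dW w hw)
    (fun x => u1 (d1 u hu x)) (fun x => w1 (d1 w hw x)) fun x => by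
      have h3 : w⁻¹ * u * (a * (w⁻¹ * u)⁻¹ * a⁻¹) = 1 := by
        have h4 := Z_comm e.v' (h'.1 hu) (h'.1 hw)
        calc _ = w⁻¹ * (u * (a * u⁻¹ * a⁻¹)) * (a * w * a⁻¹) := by group
          _ = 1 := by rw [x]; group
      exact wu (inv_mul_eq_one.1 (d1 _ (mul_mem (inv_mem hw) hu) h3))
  exact hn (centralizer_le_normalizer' _ (centralizer_anti h'.1
    (ea_le_c e.v'.ea (this.ge ha).2)))

omit [Finite G] in
theorem exists_x (h : Ln P W) (h' : Ln P' W') (hc : ¬ W ≤ centralizer (W' : Set G)) :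
    ∃ x ∈ W, x ∈ W' ∧ x ≠ 1 := by
  obtain ⟨x, hx, x1⟩ := exists_ne_one (mt commutator_eq_bot_iff_le_centralizer.1 hc)
  exact ⟨x, commutator_le_left_of_le_normalizer (ln_norm e.symm h' h) hx,
    commutator_le_right_of_le_normalizer (ln_norm e h h') hx, x1⟩

omit [Finite G] in
/-- The pairing of the lines is one to one. -/
theorem ln_unique {W₂ : Subgroup G} (h : Ln P W) (h₂ : Ln P W₂) (h' : Ln P' W')
    (hc : ¬ W ≤ centralizer (W' : Set G)) (hc₂ : ¬ W₂ ≤ centralizer (W' : Set G)) : W = W₂ := by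
  obtain ⟨x, hx, hx', x1⟩ := exists_x e h h' hc
  obtain ⟨y, hy, hy', y1⟩ := exists_x e h₂ h' hc₂
  by_cases xy : x = y
  · exact ln_eq e.v h h₂ hx (xy ▸ hy) x1
  · have := eq_of_card_four h'.2.1 (inf_le_left : W' ⊓ Zv P ≤ W') ⟨hx', h.1 hx⟩ ⟨hy', h₂.1 hy⟩
      x1 y1 xy
    exact absurd (h.1.trans ((ea_le_c e.v.ea).trans
      (centralizer_anti (this.ge.trans inf_le_right)))) hc

omit [Finite G] in
theorem norm_of_norm (h : Ln P W) (h' : Ln P' W') (hc : ¬ W ≤ centralizer (W' : Set G)) {s : G}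
    (hs : s ∈ P ⊓ P') (hn : s ∈ normalizer (W' : Set G)) : s ∈ normalizer (W : Set G) := by
  refine mem_normalizer_of_cj_eq (ln_unique e (h.cj_mem hs.1) h h' (fun x => hc ?_) hc)
  rwa [← cj_eq_of_mem_normalizer hn, ← cj_centralizer, cj_le_cj_iff] at x

theorem O_Cp (h : Ln P W) (h' : Ln P' W') (hc : ¬ W ≤ centralizer (W' : Set G)) :
    pCoreOf 2 (Cp P W) = W := by
  have hc' : ¬ W' ≤ centralizer (W : Set G) := fun x => hc (le_centralizer_comm.1 x)
  obtain ⟨x, hx, hx', x1⟩ := exists_x e h h' hc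
  have c3 := e.v.c3 W h
  have nW := ln_norm e.symm h' h
  have hP : W' ≤ P := h'.1.trans ((Z_le' e).trans inf_le_left)
  have nK : W' ≤ normalizer (Cp P W : Set G) := fun w hw => norm_Cp (hP hw) (nW hw)
  have QC : pCoreOf 2 P ≤ centralizer (W : Set G) := e.v.cent.trans (centralizer_anti h.1)
  have KW : Cp P W ≤ normalizer (W : Set G) := (Cp_le_res P W).trans h.2.2.1
  obtain ⟨b, hb, bc⟩ := SetLike.not_le_iff_exists.1 hc'
  have bx : b * x = x * b := Z_comm e.v' (h'.1 hb) (h'.1 hx')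
  have hm : b ∉ Cm (Cp P W) := fun hm => by
    obtain ⟨k, hk, kx⟩ := SetLike.not_le_iff_exists.1 (Cp_not_cent e.v h hx x1)
    exact bc (four_fix_two h.2.1 hx (conj_mem_of_mem_normalizer (KW hk) hx) x1
      (fun y => x1 (conj_eq_one_iff.1 y)) (fun y => kx (mem_c1.2 (conj_eq_iff.1 y.symm))) bx
      (conj_comm_of_Cm hm hk (ln_le_wOf e.v h hx) bx))
  have h1 : W' ≤ H54.relCent W (pCoreOf 2 P : Set G) := fun w hw => ⟨nW hw, fun q hq => by
    have qn := norm_of_norm e.symm h' h hc' (inf_comm P P' ▸ pCoreOf_le_of_sylIn e.syl hq)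
      (centralizer_le_normalizer' _ (QC hq))
    have h2 : ⁅w, q⁆ ∈ W' := by
      have := mul_mem hw (conj_mem_of_mem_normalizer qn (inv_mem hw))
      simpa only [commutatorElement_def, mul_assoc] using this
    have h3 : ⁅w, q⁆ ∈ pCoreOf 2 P :=
      mul_mem (conj_mem_of_le_normalizer (le_normalizer_pCoreOf 2 P) (hP hw) hq) (inv_mem hq)
    by_cases y1 : ⁅w, q⁆ = 1
    · exact y1 ▸ one_mem _
    by_cases yx : ⁅w, q⁆ = x
    · exact yx ▸ hx
    have := eq_of_card_four h'.2.1 (inf_le_left : W' ⊓ centralizer (W : Set G) ≤ W')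
      ⟨h2, QC h3⟩ ⟨hx', centralizer_anti h.1 (ea_le_c e.v.ea (h.1 hx))⟩ y1 x1 yx
    exact absurd (this.ge.trans inf_le_right) hc'⟩
  have h2 : Cp P W ≤ H54.relCent W (pCoreOf 2 P : Set G) := by
    rw [← c3.commutator_eq (nK hb) hm nK hb]
    exact (commutator_mono le_rfl h1).trans (commutator_le_right_of_le_normalizer
      (H24.NG.le_normalizer_relCent KW ((Cp_le P W).trans (le_normalizer_pCoreOf 2 P))))
  obtain ⟨ρ, hρ, ρO, ρ3⟩ := c3.exists_three
  have hO := O_Cp_le e.v h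
  have h3 : Cp P W ≤ W ⊔ zpowers ρ := by
    refine c3.le_of_normal (le_normalizer_iff'.2 fun r hr y hy => ?_) hρ ρO
      (mem_sup_right (mem_zpowers ρ))
    obtain ⟨w, hw, z, hz, rfl⟩ := (H53.mem_sup_of_le_normalizer (zpowers_le.2 (KW hρ))).1 hy
    have h4 := (h2 (zpowers_le.2 hρ hz)).2 r (hO hr)
    have h5 : r * (w * z) * r⁻¹ = r * w * r⁻¹ * ⁅z, r⁆⁻¹ * z := by
      simp only [commutatorElement_def]; group
    rw [h5]
    exact mul_mem (mem_sup_left (mul_mem (conj_mem_of_mem_normalizer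
      (centralizer_le_normalizer' _ (QC (hO hr))) hw) (inv_mem h4))) (mem_sup_right hz)
  refine le_antisymm (fun r hr => ?_) (ln_le_O e.v h)
  obtain ⟨w, hw, z, hz, rfl⟩ := (H53.mem_sup_of_le_normalizer (zpowers_le.2 (KW hρ))).1
    (h3 (O_le _ hr))
  have h4 : z = 1 := eq_one_of_odd (pg_O _) ((mul_mem_cancel_left (ln_le_O e.v h hw)).1 hr)
    ((ρ3 ▸ by decide : Odd (orderOf ρ)).of_dvd_nat (orderOf_dvd_of_mem_zpowers hz))
  rwa [h4, mul_one]

theorem a4_Cp (h : Ln P W) (h' : Ln P' W') (hc : ¬ W ≤ centralizer (W' : Set G)) :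
    A4 (Cp P W) := ⟨e.v.c3 W h, by rw [O_Cp e h h' hc]; exact h.2.1⟩

theorem free_res : P ⊓ P' ⊓ centralizer (resOf 2 P : Set G) ⊓
    centralizer (resOf 2 P' : Set G) = ⊥ := by
  have hn : P ⊓ P' ≤ normalizer ((P ⊓ P' ⊓ centralizer (resOf 2 P : Set G) ⊓
      centralizer (resOf 2 P' : Set G) : Subgroup G) : Set G) :=
    inf_le_normalizer_inf (inf_le_normalizer_inf le_normalizer
      (le_normalizer_centralizer (inf_le_left.trans (le_normalizer_resOf 2 P))))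
      (le_normalizer_centralizer (inf_le_right.trans (le_normalizer_resOf 2 P')))
  refine e.free _ (e.syl.isPGroup.to_le (inf_le_left.trans inf_le_left)) ?_ ?_
  · conv_lhs => rw [← sup_resOf e.syl]
    exact sup_le hn ((le_centralizer_comm.1 (inf_le_left.trans inf_le_right)).trans
      (centralizer_le_normalizer' _))
  · conv_lhs => rw [← sup_resOf e.syl']
    exact sup_le hn ((le_centralizer_comm.1 inf_le_right).trans (centralizer_le_normalizer' _))

theorem norm_Cp_eq (h : Ln P W) (h' : Ln P' W') (hc : ¬ W ≤ centralizer (W' : Set G)) {s : G}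
    (hs : s ∈ P) : s ∈ normalizer (Cp P W : Set G) ↔ s ∈ normalizer (W : Set G) :=
  ⟨fun x => O_Cp e h h' hc ▸ normalizer_le_normalizer_pCoreOf _ x, norm_Cp hs⟩

theorem side2 (h : Ln P W) (h' : Ln P' W') (hc : ¬ W ≤ centralizer (W' : Set G)) {t : G}
    (ht : t ∈ P) (hn : t ∉ normalizer (W : Set G)) :
    Cp P W ≤ centralizer (cj t (Cp P W) : Set G) ∧ resOf 2 P ≤ Cp P W ⊔ cj t (Cp P W) := by
  have h2 := h.cj_mem ht
  have hne : W ≠ cj t W := fun x => hn (mem_normalizer_of_cj_eq x.symm)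
  have e1 : cj t (Cp P W) = Cp P (cj t W) := by
    rw [cj_Cp, cj_eq_of_mem_normalizer (le_normalizer ht)]
  refine ⟨e1 ▸ Cp_comm e.v h h2 hne (O_Cp e h h' hc) (by
    rw [← e1, ← cj_pCoreOf, O_Cp e h h' hc]), e.v.res.trans (iSup₂_le fun X hX => ?_)⟩
  rcases e.v.two _ _ _ h h2 hX with x | rfl | rfl
  · exact absurd x hne
  · exact le_sup_left
  · exact e1 ▸ le_sup_right

theorem end_of (hb : ¬ Zv P ≤ pCoreOf 2 P') :
    (∃ K L : Subgroup G, End1 (P ⊓ P') K L) ∨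
      ∃ (K L : Subgroup G) (t : G), End2 (P ⊓ P') K L t := by
  obtain ⟨W, W', h, h', hc⟩ := exists_pair e hb
  have hc' : ¬ W' ≤ centralizer (W : Set G) := fun x => hc (le_centralizer_comm.1 x)
  have o := O_Cp e h h' hc
  have o' := O_Cp e.symm h' h hc'
  have nn : ∀ s ∈ P ⊓ P', s ∈ normalizer (W : Set G) ↔ s ∈ normalizer (W' : Set G) :=
    fun s hs => ⟨norm_of_norm e.symm h' h hc' (inf_comm P P' ▸ hs), norm_of_norm e h h' hc hs⟩
  have wK : pCoreOf 2 (Cp P W) ≤ P ⊓ P' := o.le.trans (h.1.trans (Z_le e))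
  have wL : pCoreOf 2 (Cp P' W') ≤ P ⊓ P' := o'.le.trans (h'.1.trans (Z_le' e))
  have ne : ⁅pCoreOf 2 (Cp P W), pCoreOf 2 (Cp P' W')⁆ ≠ ⊥ := by
    rw [o, o']
    exact mt commutator_eq_bot_iff_le_centralizer.1 hc
  by_cases hT : P ⊓ P' ≤ normalizer (W : Set G)
  · have hT' : P ⊓ P' ≤ normalizer (W' : Set G) := fun s hs => (nn s hs).1 (hT hs)
    have r : resOf 2 P ≤ Cp P W := e.v.res.trans (iSup₂_le fun X hX => by
      obtain ⟨t, ht, rfl⟩ := e.v.trans _ _ _ e.syl h hX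
      rw [cj_eq_of_mem_normalizer (hT ht)])
    have r' : resOf 2 P' ≤ Cp P' W' := e.v'.res.trans (iSup₂_le fun X hX => by
      obtain ⟨t, ht, rfl⟩ := e.v'.trans _ _ _ e.syl' h' hX
      rw [cj_eq_of_mem_normalizer (hT' ht)])
    exact Or.inl ⟨_, _, e.syl.isPGroup, a4_Cp e h h' hc, a4_Cp e.symm h' h hc',
      fun s hs => norm_Cp hs.1 (hT hs), fun s hs => norm_Cp hs.2 (hT' hs), wK, wL, ne,
      le_bot_iff.1 ((inf_le_inf (inf_le_inf le_rfl (centralizer_anti r))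
        (centralizer_anti r')).trans (free_res e).le)⟩
  · obtain ⟨t, ht, hn⟩ := SetLike.not_le_iff_exists.1 hT
    have hn' : t ∉ normalizer (W' : Set G) := fun x => hn ((nn t ht).2 x)
    obtain ⟨c, r⟩ := side2 e h h' hc ht.1 hn
    obtain ⟨c', r'⟩ := side2 e.symm h' h hc' ht.2 hn'
    refine Or.inr ⟨_, _, t, e.syl.isPGroup, a4_Cp e h h' hc, a4_Cp e.symm h' h hc', ht,
      fun x => hn ((norm_Cp_eq e h h' hc ht.1).1 x), fun s hs => ?_, ?_, wK, wL, ne, c, c', ?_,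
      le_bot_iff.1 ((inf_le_inf (inf_le_inf le_rfl (centralizer_anti r))
        (centralizer_anti r')).trans (free_res e).le)⟩
    · rcases e.v.two _ _ _ h (h.cj_mem (inv_mem ht.1)) (h.cj_mem (inv_mem hs.1)) with x | x | x
      · exact absurd (inv_mem_iff.1 (mem_normalizer_of_cj_eq x.symm)) hn
      · exact Or.inl (norm_Cp hs.1 (inv_mem_iff.1 (mem_normalizer_of_cj_eq x.symm)))
      · exact Or.inr (norm_Cp (mul_mem hs.1 (inv_mem ht.1)) (by simpa using cj_eq_iff.1 x))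
    · ext s
      refine and_congr_right fun hs => ?_
      exact (norm_Cp_eq e h h' hc hs.1).trans ((nn s hs).trans
        (norm_Cp_eq e.symm h' h hc' hs.2).symm)
    · rw [o, o']
      by_contra x
      exact hn' (mem_normalizer_of_cj_eq (ln_unique e.symm (h'.cj_mem ht.2) h' h
        (fun y => x (le_centralizer_comm.1 y)) hc'))

end edge

end Cfsg.Agent.H57.QA
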