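import Cfsg.Agent.H57.QAD1
import Cfsg.Agent.H82.Extremal
import Cfsg.Agent.H9.Dihedral

/-!
The end configurations: transfer removes the central factor.
-/

set_option autoImplicit false

namespace Cfsg.Agent.H57.QA

open Cfsg Cfsg.Agent.H98 Cfsg.Agent.H84 Cfsg.Agent.H71.NG Cfsg.Agent.H72.NG Subgroup
open Cfsg.Agent.H71.QA
open Cfsg.Agent.H72.QA (HW exists_HW d8w)
open Cfsg.Agent.H72 (four four_le left_mem_four right_mem_four)
open scoped commutatorElement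

variable {G : Type*} [Group G] [Finite G]

omit [Finite G] in
theorem one_of {A B : Subgroup G} (h : A ⊓ B = ⊥) {g : G} (ha : g ∈ A) (hb : g ∈ B) : g = 1 :=
  mem_bot.1 (h ▸ mem_inf.2 ⟨ha, hb⟩)

/-- An involution centralizing `J(T)` lies in each normal subgroup with cyclic quotient. -/
theorem transfer_mem {T T₁ : Subgroup G} (hO : pResidual 2 G = ⊤) (hT : SylIn 2 T ⊤)
    (nJ : normalizer (JJ T : Set G) ≤ T) (hn : T ≤ normalizer (T₁ : Set G)) {s c : G}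
    (hs : s ∈ T) (hg : T ≤ T₁ ⊔ zpowers s) (h1 : T₁ ≤ T) (hc : c ∈ T) (c2 : c * c = 1)
    (hJ : JJ T ≤ centralizer {c}) : c ∈ T₁ := by
  by_contra hc1
  obtain ⟨S, rfl⟩ := hT.exists_sylow_top
  haveI := (normal_subgroupOf_iff_le_normalizer' h1).2 hn
  have hcyc : IsCyclic (↥(S : Subgroup G) ⧸ T₁.subgroupOf (S : Subgroup G)) := by
    refine ⟨⟨((⟨s, hs⟩ : (S : Subgroup G)) : _ ⧸ T₁.subgroupOf (S : Subgroup G)), fun q => ?_⟩⟩
    obtain ⟨y, rfl⟩ := QuotientGroup.mk_surjective q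
    obtain ⟨a, ha, _, ⟨i, rfl⟩, e⟩ :=
      (H53.mem_sup_of_le_normalizer (zpowers_le.2 (hn hs))).1 (hg y.2)
    refine ⟨i, ?_⟩
    show ((⟨s, hs⟩ : (S : Subgroup G)) : _ ⧸ T₁.subgroupOf (S : Subgroup G)) ^ i = _
    rw [← QuotientGroup.mk_zpow, QuotientGroup.eq, mem_subgroupOf]
    have := conj_mem_of_mem_normalizer' (zpow_mem (hn hs) i) ha
    simpa [← e, mul_assoc] using this
  obtain ⟨g, g1, -, -, g2⟩ := H82.exists_extremal_conj_of_cyclic S T₁ hcyc c2 hc hc1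
    (hO ▸ mem_top c)
  have h2 : cj g (JJ (S : Subgroup G)) ≤ S :=
    (cj_mono (le_inf (JJ_le _) hJ)).trans (g2.trans inf_le_left)
  have h3 : cj g (JJ (S : Subgroup G)) ≤ JJ (S : Subgroup G) := by
    rw [cj_le_iff_le_cj_inv]
    refine H51.thompsonSubgroupOf_le_iff.2 fun A hA => cj_le_iff_le_cj_inv.1 ?_
    exact H51.le_thompsonSubgroupOf (H51.mem_maxEA_of_card_le hA
      ((cj_mono (H51.le_thompsonSubgroupOf hA)).trans h2) (H51.isEA_map hA.2.1 _)
      (card_map_conj g A).ge)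
  have := conj_mem_of_mem_normalizer' (hn (nJ (mem_norm_of_cj_le h3))) g1
  exact hc1 (by simpa [mul_assoc] using this)

theorem exists_cov {T H : Subgroup G} (hT : IsPGroup 2 T) (h : H < T) :
    ∃ M : Subgroup G, H ≤ M ∧ M < T ∧ T ≤ normalizer (M : Set G) ∧
      ∃ s ∈ T, T ≤ M ⊔ zpowers s := by
  obtain ⟨M, hM, h1, h2⟩ := Finite.exists_le_maximal (p := fun X : Subgroup G => X < T) h
  have key : ∀ X : Subgroup G, M < X → X ≤ T → T ≤ X := fun X a b => by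
    by_contra c
    exact absurd (h2 (lt_of_le_of_ne b fun e => c e.ge) a.le) a.not_ge
  obtain ⟨s, hs, hsM⟩ := SetLike.exists_of_lt h1
  exact ⟨M, hM, h1, (key _ (H8.lt_inf_normalizer_of_lt hT h1) inf_le_left).trans inf_le_right,
    s, hs, key _ (lt_of_le_of_ne le_sup_left fun e => hsM (e ▸ mem_sup_right (mem_zpowers s)))
      (sup_le h1.le (zpowers_le.2 hs))⟩

theorem end1 {T K L : Subgroup G} (hO : pResidual 2 G = ⊤) (hT : SylIn 2 T ⊤)
    (nJ : normalizer (JJ T : Set G) ≤ T) (c : centralizer (om T : Set G) ≤ T) (e : End1 T K L) :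
    ∃ z : G, orderOf z = 2 ∧ Nonempty (centralizer ({z} : Set G) ≃* DihedralGroup 4) := by
  obtain ⟨x, a, b, s, u, hab⟩ := exists_HW e.aK e.aL e.nK e.nL e.wK e.wL e.ne
  obtain ⟨h8, -, hD, hdis, hc⟩ := d8w e.aK e.aL e.pg e.nK e.nL e.wK e.wL e.ne
  have fr : ∀ y ∈ T ⊓ centralizer (K : Set G), L ≤ centralizer {y} → y = 1 := fun y hy h =>
    mem_bot.1 (e.free ▸ mem_inf.2 ⟨hy, mem_centralizer_iff_le.2 h⟩)
  have h1 : ∀ y ∈ T ⊓ centralizer (K : Set G), y ≠ 1 → y * x ∈ centralizer (L : Set G) :=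
    fun y hy y1 => mem_centralizer_iff_le.2 ((u.cent_ab s hab.symm hy.1
      (hc hy b (mem_sup_right u.a_mem)).symm (hc hy a (mem_sup_left s.a_mem)).symm).resolve_left
        fun h => y1 (fr y hy h))
  have h2 : ∀ y ∈ T ⊓ centralizer (K : Set G), ∀ z ∈ T ⊓ centralizer (K : Set G), y ≠ 1 →
      z ≠ 1 → y = z := fun y hy z hz y1 z1 => mul_inv_eq_one.1 (fr _ (mul_mem hy (inv_mem hz))
        (mem_centralizer_iff_le.1 (by
          simpa using mul_mem (h1 y hy y1) (inv_mem (h1 z hz z1)))))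
  have hE : T ⊓ centralizer (K : Set G) = ⊥ := by
    refine le_bot_iff.1 fun y hy => mem_bot.2 (by_contra fun y1 => ?_)
    have h3 : T ⊓ centralizer (K : Set G) ≤ zpowers y := fun z hz => by
      by_cases z1 : z = 1
      · exact z1 ▸ one_mem _
      · exact h2 y hy z hz y1 z1 ▸ mem_zpowers y
    have y2 : y * y = 1 := by_contra fun h => y1 (mul_eq_left.1 (h2 _ (mul_mem hy hy) y hy h y1))
    have h4 : T ≤ centralizer {y} := hD.le.trans (sup_le (mem_centralizer_iff_le.1 (hc hy))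
      (h3.trans (zpowers_le.2 (mem_c1.2 rfl))))
    exact y1 (mem_bot.1 (hdis ▸ mem_inf.2 ⟨transfer_mem hO hT nJ
      (le_normalizer_sup (norm_O e.nK) (norm_O e.nL)) hy.1 (hD.le.trans (sup_le_sup_left h3 _))
      (sup_le e.wK e.wL) hy.1 y2 ((JJ_le T).trans h4), hy.2⟩))
  rw [hE, sup_bot_eq] at hD
  have hx : centralizer ({x} : Set G) = T := by
    refine le_antisymm (fun g hg => c fun y hy => ?_) fun g hg => mem_c1.2 (s.xc g hg)
    obtain ⟨y1, y2, -⟩ := mem_omegaOne_ctr.1 hy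
    rcases s.cent_ab u hab y1 (y2 a s.aD).symm (y2 b u.aD).symm with h | h
    · rw [one_of hE y1 (mem_centralizer_iff_le.2 h), one_mul, mul_one]
    · rw [eq_inv_of_mul_eq_one_left (one_of hE (mul_mem y1 s.xD) (mem_centralizer_iff_le.2 h)),
        H72.inv_eq_of_sq s.ia.sa]
      exact (mem_c1.1 hg).symm
  refine ⟨x, H72.ord2 s.ia.sa s.ia.na, ?_⟩
  rw [hx]
  have ba := s.conj u.aD hab.symm
  have sq : (a * b) ^ 2 = x := by
    calc _ = a * (b * a) * b := by rw [pow_two]; group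
      _ = a * x * a * (b * b) := by rw [ba]; group
      _ = x := by rw [u.ia.sb, ← s.ia.comm, mul_one, mul_assoc, s.ia.sb, mul_one]
  have o4 : orderOf (a * b) = 4 := by
    haveI : Fact (Nat.Prime 2) := ⟨Nat.prime_two⟩
    refine orderOf_eq_prime_pow (p := 2) (n := 1) (by rw [pow_one, sq]; exact s.ia.na) ?_
    rw [show 2 ^ (1 + 1) = 2 * 2 from rfl, pow_mul, sq, pow_two, s.ia.sa]
  refine H9.equiv_dihedral_of_card (⟨a * b, mul_mem s.aD u.aD⟩ : T) ⟨b, u.aD⟩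
    (by rw [← o4, ← orderOf_coe]) (Subtype.ext u.ia.sb) (Subtype.ext ?_) (fun h => hab ?_)
    (by rw [hD, h8])
  · show b * (a * b) * b⁻¹ = (a * b)⁻¹
    rw [mul_inv_rev, H72.inv_eq_of_sq s.ia.sb, H72.inv_eq_of_sq u.ia.sb, mul_assoc, mul_assoc,
      u.ia.sb, mul_one]
  · obtain ⟨i, hi⟩ := h
    have h3 : (a * b) ^ i = b := congrArg Subtype.val hi
    have h4 : a * b * b = b * (a * b) := by
      have := ((Commute.refl (a * b)).zpow_right i).eq
      rwa [h3] at this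
    rw [← mul_assoc, mul_left_inj] at h4
    exact h4

/-- Two commuting pairs of groups `A₄`. -/
structure Dbl (T K L K' L' : Subgroup G) (x a b y c d : G) : Prop where
  pg : IsPGroup 2 T
  s : HW K T x a
  u : HW L T x b
  ab : a * b ≠ b * a
  s' : HW K' T y c
  u' : HW L' T y d
  cd : c * d ≠ d * c
  cK : K ≤ centralizer (K' : Set G)
  cL : L ≤ centralizer (L' : Set G)
  c1 : pCoreOf 2 K ≤ centralizer (pCoreOf 2 L' : Set G)
  c2 : pCoreOf 2 K' ≤ centralizer (pCoreOf 2 L : Set G)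
  free : ∀ e ∈ T, K ≤ centralizer {e} → K' ≤ centralizer {e} → L ≤ centralizer {e} →
    L' ≤ centralizer {e} → e = 1

namespace Dbl

variable {T K L K' L' : Subgroup G} {x a b y c d : G} (h : Dbl T K L K' L' x a b y c d)
include h

omit [Finite G] in
theorem symm : Dbl T K' L' K L y c d x a b :=
  ⟨h.pg, h.s', h.u', h.cd, h.s, h.u, h.ab, le_centralizer_comm.1 h.cK, le_centralizer_comm.1 h.cL,
    h.c2, h.c1, fun e he h1 h2 h3 h4 => h.free e he h2 h1 h4 h3⟩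

theorem d8 : Nat.card ↥(pCoreOf 2 K ⊔ pCoreOf 2 L) = 8 ∧
    T = pCoreOf 2 K ⊔ pCoreOf 2 L ⊔ (T ⊓ centralizer (K : Set G)) ∧
    (pCoreOf 2 K ⊔ pCoreOf 2 L) ⊓ centralizer (K : Set G) = ⊥ ∧
    T ⊓ centralizer (K : Set G) ≤
      centralizer ((pCoreOf 2 K ⊔ pCoreOf 2 L : Subgroup G) : Set G) := by
  obtain ⟨h1, -, h2⟩ := d8w h.s.k h.u.k h.pg h.s.n h.u.n h.s.O_le h.u.O_le fun e =>
    h.ab (commutator_eq_bot_iff_le_centralizer.1 e h.s.a_mem b h.u.a_mem).symm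
  exact ⟨h1, h2⟩

theorem card_T : Nat.card T = 8 * Nat.card ↥(T ⊓ centralizer (K : Set G)) := by
  obtain ⟨h1, h2, h3, h4⟩ := h.d8
  have := H53.card_inf_mul_card_sup (h4.trans (centralizer_le_normalizer' _))
  rwa [← h2, le_bot_iff.1 ((inf_le_inf_left _ inf_le_right).trans h3.le), card_bot, one_mul,
    h1] at this

omit [Finite G] in
theorem W_le : pCoreOf 2 K' ≤ T ⊓ centralizer (K : Set G) :=
  le_inf h.s'.O_le ((O_le _).trans h.symm.cK)

omit [Finite G] in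
theorem norm_E : T ≤ normalizer ((T ⊓ centralizer (K : Set G) : Subgroup G) : Set G) :=
  inf_le_normalizer_inf le_normalizer (le_normalizer_centralizer h.s.n)

omit [Finite G] in
theorem DD : pCoreOf 2 K ⊔ pCoreOf 2 L ≤
    centralizer ((pCoreOf 2 K' ⊔ pCoreOf 2 L' : Subgroup G) : Set G) := by
  rw [centralizer_sup']
  exact sup_le (le_inf ((O_le _).trans (h.cK.trans (centralizer_anti (O_le _)))) h.c1)
    (le_inf (le_centralizer_comm.1 h.c2)
      ((O_le _).trans (h.cL.trans (centralizer_anti (O_le _)))))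

theorem exists_d : ∃ d' ∈ T ⊓ centralizer (K : Set G), d' = d ∨ d' = d * x := by
  have h1 := h.symm.DD (mem_sup_right h.u'.a_mem)
  rcases h.s.cent_ab h.u h.ab h.u'.aD (h1 a (mem_sup_left h.s.a_mem)).symm
    (h1 b (mem_sup_right h.u.a_mem)).symm with e | e
  · exact ⟨d, ⟨h.u'.aD, mem_centralizer_iff_le.2 e⟩, Or.inl rfl⟩
  · exact ⟨d * x, ⟨mul_mem h.u'.aD h.s.xD, mem_centralizer_iff_le.2 e⟩, Or.inr rfl⟩

theorem le_EE : T ≤ (T ⊓ centralizer (K' : Set G)) ⊔ (T ⊓ centralizer (K : Set G)) := by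
  obtain ⟨b', hb, e⟩ := h.symm.exists_d
  refine h.d8.2.1.le.trans (sup_le (sup_le (h.symm.W_le.trans le_sup_left) ?_) le_sup_right)
  rw [h.u.W]
  refine four_le (mem_sup_left (h.symm.W_le h.s.x_mem)) ?_
  rcases e with rfl | rfl
  · exact mem_sup_left hb
  · exact (mul_mem_cancel_right (mem_sup_right (h.W_le h.s'.x_mem))).1 (mem_sup_left hb)

theorem le_FE : T ≤ (pCoreOf 2 K ⊔ pCoreOf 2 L) ⊔ (pCoreOf 2 K' ⊔ pCoreOf 2 L') ⊔
    (T ⊓ centralizer (K : Set G) ⊓ centralizer (K' : Set G)) := by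
  obtain ⟨d', hd, e⟩ := h.exists_d
  refine h.d8.2.1.le.trans (sup_le (le_sup_left.trans le_sup_left) fun g hg => ?_)
  have xc : x * c = c * x := (h.cK (O_le _ h.s.x_mem) c (O_le _ h.s'.a_mem)).symm
  have dc := h.s'.conj h.u'.aD h.cd.symm
  have h1 : d' * c = y * (c * d') := by
    rcases e with rfl | rfl
    · exact dc
    · rw [mul_assoc, xc, ← mul_assoc, dc, mul_assoc, mul_assoc]
  have h2 : d' ∈ (pCoreOf 2 K ⊔ pCoreOf 2 L) ⊔ (pCoreOf 2 K' ⊔ pCoreOf 2 L') := by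
    rcases e with rfl | rfl
    · exact mem_sup_right (mem_sup_right h.u'.a_mem)
    · exact mul_mem (mem_sup_right (mem_sup_right h.u'.a_mem))
        (mem_sup_left (mem_sup_left h.s.x_mem))
  obtain ⟨w, hw, e'⟩ := H93.NG.side h.s'.k h.s'.n h.s'.ia h.s'.W hd.1 h1 h.s'.xc hg.1
  rw [← h.s'.W] at hw
  have h3 := mem_sup_left (T := T ⊓ centralizer (K : Set G) ⊓ centralizer (K' : Set G))
    (mem_sup_right (S := pCoreOf 2 K ⊔ pCoreOf 2 L) (mem_sup_left (T := pCoreOf 2 L') hw))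
  rcases e' with e' | e'
  · exact (mul_mem_cancel_right h3).1 (mem_sup_right
      (mem_inf.2 ⟨mul_mem hg (h.W_le hw), mem_centralizer_iff_le.2 e'⟩))
  · exact (mul_mem_cancel_right (mem_sup_left h2)).1 ((mul_mem_cancel_right h3).1 (mem_sup_right
      (mem_inf.2 ⟨mul_mem (mul_mem hg hd) (h.W_le hw), mem_centralizer_iff_le.2 e'⟩)))

theorem L_cent {e : G} (he : e ∈ T ⊓ centralizer (K : Set G)) :
    L ≤ centralizer {e} ∨ L ≤ centralizer {e * x} :=
  h.u.cent_ab h.s h.ab.symm he.1 (h.d8.2.2.2 he b (mem_sup_right h.u.a_mem)).symm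
    (h.d8.2.2.2 he a (mem_sup_left h.s.a_mem)).symm

theorem L_sq {e : G} (he : e ∈ T ⊓ centralizer (K : Set G)) : L ≤ centralizer {e * e} := by
  rcases h.L_cent he with k | k
  · exact mem_centralizer_iff_le.1
      (mul_mem (mem_centralizer_iff_le.2 k) (mem_centralizer_iff_le.2 k))
  · have := mul_mem (mem_centralizer_iff_le.2 k) (mem_centralizer_iff_le.2 k)
    rw [mul_assoc, ← mul_assoc x, ← h.s.xc e he.1, mul_assoc, h.s.ia.sa, mul_one] at this
    exact mem_centralizer_iff_le.1 this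

theorem E_sq {e : G} (he : e ∈ T ⊓ centralizer (K : Set G) ⊓ centralizer (K' : Set G)) :
    e * e = 1 :=
  h.free _ (mul_mem he he).1.1 (mem_centralizer_iff_le.1 (mul_mem he he).1.2)
    (mem_centralizer_iff_le.1 (mul_mem he he).2) (h.L_sq he.1) (h.symm.L_sq ⟨he.1.1, he.2⟩)

theorem E_cent {e : G} (he : e ∈ T ⊓ centralizer (K : Set G) ⊓ centralizer (K' : Set G)) :
    T ≤ centralizer {e} := fun g hg => by
  have := h.free (g * e * g⁻¹ * e⁻¹) (mul_mem (mul_mem (mul_mem hg he.1.1) (inv_mem hg))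
    (inv_mem he.1.1)) (h.s.comm_cent hg he.1.1 (Or.inl (mem_centralizer_iff_le.1 he.1.2)))
    (h.s'.comm_cent hg he.1.1 (Or.inl (mem_centralizer_iff_le.1 he.2)))
    (h.u.comm_cent hg he.1.1 (h.L_cent he.1))
    (h.u'.comm_cent hg he.1.1 (h.symm.L_cent ⟨he.1.1, he.2⟩))
  exact mem_c1.2 (conj_eq_iff.1 (mul_inv_eq_one.1 this))

theorem cent_of {g : G} (hg : g ∈ pCoreOf 2 K ⊔ pCoreOf 2 L)
    (hc : g ∈ centralizer ((pCoreOf 2 K ⊔ pCoreOf 2 L : Subgroup G) : Set G)) :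
    g ∈ centralizer (K' : Set G) := by
  have h1 := sup_le h.s.O_le h.u.O_le hg
  have hx := (h.symm.W_le h.s.x_mem).2
  rcases h.s.cent_ab h.u h.ab h1 (hc a (mem_sup_left h.s.a_mem)).symm
    (hc b (mem_sup_right h.u.a_mem)).symm with e | e
  · rw [one_of h.d8.2.2.1 hg (mem_centralizer_iff_le.2 e)]
    exact one_mem _
  · rw [eq_inv_of_mul_eq_one_left (one_of h.d8.2.2.1
      (mul_mem hg (mem_sup_left h.s.x_mem)) (mem_centralizer_iff_le.2 e))]
    exact inv_mem hx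

theorem FE {e : G} (he : e ∈ T ⊓ centralizer (K : Set G) ⊓ centralizer (K' : Set G))
    (hF : e ∈ (pCoreOf 2 K ⊔ pCoreOf 2 L) ⊔ (pCoreOf 2 K' ⊔ pCoreOf 2 L')) : e = 1 := by
  obtain ⟨f, hf, g, hg, rfl⟩ := (H53.mem_sup_of_le_normalizer
    (h.symm.DD.trans (centralizer_le_normalizer' _))).1 hF
  have h1 := h.cent_of hf ((mul_mem_cancel_right (h.symm.DD hg)).1 (h.d8.2.2.2 he.1))
  have h2 := h.symm.cent_of hg ((mul_mem_cancel_left (h.DD hf)).1
    (h.symm.d8.2.2.2 ⟨he.1.1, he.2⟩))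
  have h3 := one_of h.d8.2.2.1 hf ((mul_mem_cancel_right h2).1 he.1.2)
  have h4 := one_of h.symm.d8.2.2.1 hg ((mul_mem_cancel_left h1).1 he.2)
  rw [h3, h4, mul_one]

theorem exists_ea : ∃ B : Subgroup G, B ≤ T ∧ IsElementaryAbelian 2 B ∧
    Nat.card B = 16 * Nat.card ↥(T ⊓ centralizer (K : Set G) ⊓ centralizer (K' : Set G)) := by
  have c1 : pCoreOf 2 K' ≤ centralizer (pCoreOf 2 K : Set G) :=
    (h.W_le.trans inf_le_right).trans (centralizer_anti (O_le _))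
  have c2 : T ⊓ centralizer (K : Set G) ⊓ centralizer (K' : Set G) ≤
      centralizer ((pCoreOf 2 K ⊔ pCoreOf 2 K' : Subgroup G) : Set G) := by
    rw [centralizer_sup']
    exact inf_le_inf (inf_le_right.trans (centralizer_anti (O_le _))) (centralizer_anti (O_le _))
  have h1 := H53.card_inf_mul_card_sup (c1.trans (centralizer_le_normalizer' _))
  have h2 := H53.card_inf_mul_card_sup (c2.trans (centralizer_le_normalizer' _))
  rw [le_bot_iff.1 ((inf_le_inf le_sup_left (h.W_le.trans inf_le_right)).trans h.d8.2.2.1.le),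
    card_bot, one_mul, h.s.k.card, h.s'.k.card] at h1
  have h3 : (pCoreOf 2 K ⊔ pCoreOf 2 K') ⊓
      (T ⊓ centralizer (K : Set G) ⊓ centralizer (K' : Set G)) = ⊥ :=
    le_bot_iff.1 fun e he => mem_bot.2 (h.FE he.2
      ((sup_le_sup le_sup_left le_sup_left : pCoreOf 2 K ⊔ pCoreOf 2 K' ≤ _) he.1))
  rw [h3, card_bot, one_mul, h1] at h2
  refine ⟨_, sup_le (sup_le h.s.O_le h.s'.O_le) (inf_le_left.trans inf_le_left),
    H51.isEA_sup (H51.isEA_sup (H93.NG.A4_ea h.s.k) (H93.NG.A4_ea h.s'.k) c1) ⟨?_, ?_⟩ c2, h2⟩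
  · exact H51.isMulCommutative_iff_forall.2 fun e he f hf => mem_c1.1 (h.E_cent hf he.1.1)
  · exact fun e he => by rw [sq]; exact h.E_sq he

theorem card_ab {A : Subgroup G} (hA : A ≤ T) (hc : A ≤ centralizer (A : Set G)) :
    Nat.card A ≤ 4 * Nat.card ↥(T ⊓ centralizer (K : Set G) ⊓ A) := by
  have hn := h.norm_E
  have hE : ∀ X : Subgroup G, X ≤ T → T ⊓ centralizer (K : Set G) ≤
      H54.relCent (T ⊓ centralizer (K : Set G)) (X : Set G) := fun X hX =>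
    H54.le_relCent_iff.2 ⟨le_normalizer, commutator_le_left_of_le_normalizer (hX.trans hn)⟩
  have hlt : T ⊓ centralizer (K : Set G) ⊔ A ≠ T := fun e => by
    have h1 := H54.le_relCent_iff.1 (e.ge.trans (sup_le (hE A hA) (H54.le_relCent_iff.2
      ⟨hA.trans hn, (commutator_eq_bot_iff_le_centralizer.2 hc).le.trans bot_le⟩)))
    have h2 := (e.ge.trans (sup_le (hE T le_rfl) (H54.le_relCent_iff.2
      ⟨hA.trans hn, commutator_comm T A ▸ h1.2⟩)) h.u.aD).2 a h.s.aD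
    rw [commutatorElement_def, h.s.conj h.u.aD h.ab.symm,
      show x * (a * b) * b⁻¹ * a⁻¹ = x by group] at h2
    exact h.s.not_cent (mem_centralizer_iff_le.1 h2.2)
  have h1 := H53.card_inf_mul_card_sup (hA.trans hn)
  obtain ⟨k, hk⟩ := card_dvd_of_le (sup_le inf_le_left hA : T ⊓ centralizer (K : Set G) ⊔ A ≤ T)
  have h2 : 2 ≤ k := by
    by_contra hk2
    have hp : 0 < Nat.card T := Nat.card_pos
    obtain rfl | rfl : k = 0 ∨ k = 1 := by omega
    · omega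
    · exact hlt (eq_of_le_of_card_ge (sup_le inf_le_left hA) (by omega))
  have h3 := h.card_T
  have hp : 0 < Nat.card ↥(T ⊓ centralizer (K : Set G)) := Nat.card_pos
  generalize Nat.card ↥(T ⊓ centralizer (K : Set G) ⊔ A) = m at *
  generalize Nat.card ↥(T ⊓ centralizer (K : Set G) ⊓ A) = i at *
  generalize Nat.card ↥(T ⊓ centralizer (K : Set G)) = n at *
  have h4 : m ≤ 4 * n := by nlinarith
  exact Nat.le_of_mul_le_mul_left (by nlinarith) hp

end Dbl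

theorem sw_of {T T₀ K E₁ E₂ : Subgroup G} {t : G} (aK : A4 K) (pg : IsPGroup 2 T₀) (l0 : T₀ ≤ T)
    (ht : t ∈ T) (l1 : E₁ ≤ T₀) (l2 : E₂ ≤ T₀) (nK : T₀ ≤ normalizer (K : Set G))
    (nK' : T₀ ≤ normalizer (cj t K : Set G)) (c1 : E₁ ≤ centralizer (K : Set G))
    (c2 : E₂ ≤ centralizer (cj t K : Set G)) (n1 : T₀ ≤ normalizer (E₁ : Set G))
    (n2 : T₀ ≤ normalizer (E₂ : Set G)) (hle : T₀ ≤ E₂ ⊔ E₁)
    (c8 : Nat.card T₀ = 8 * Nat.card E₁) (w : pCoreOf 2 K ≤ E₂)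
    (act : ¬ E₂ ≤ centralizer (pCoreOf 2 K : Set G)) (t1 : cj t E₁ = E₂) (t2 : cj t E₂ = E₁)
    (dis : E₂ ⊓ E₁ = ⊥) (tt : t * t ∈ T₀) (hT : T ≤ T₀ ⊔ zpowers t)
    (cK : K ≤ centralizer (cj t K : Set G)) : ∃ (D : Subgroup G) (s : G), SW T K D s := by
  have cc : E₂ ≤ centralizer (E₁ : Set G) := commutator_eq_bot_iff_le_centralizer.1
    (le_bot_iff.1 (dis ▸ le_inf (commutator_le_left_of_le_normalizer (l1.trans n2))
      (commutator_le_right_of_le_normalizer (l2.trans n1))))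
  obtain ⟨d, hd, d', hd', e⟩ := (H53.mem_sup_of_le_normalizer (l1.trans n2)).1 (hle tt)
  have h1 : t * d * t⁻¹ ∈ E₁ := t2 ▸ conj_mem_map_conj hd
  have h2 : t * d' * t⁻¹ ∈ E₂ := t1 ▸ conj_mem_map_conj hd'
  have h3 : (t * d' * t⁻¹)⁻¹ * d = t * d * t⁻¹ * d'⁻¹ := by
    have h4 : t * d' * t⁻¹ * (t * d * t⁻¹) = d * d' := by
      rw [← cc h2 _ h1, e, show t * d * t⁻¹ * (t * d' * t⁻¹) = t * (d * d') * t⁻¹ by group, e]
      group
    calc _ = (t * d' * t⁻¹)⁻¹ * (d * d') * d'⁻¹ := by group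
      _ = _ := by rw [← h4]; group
  have h4 : t * d * t⁻¹ = d' := mul_inv_eq_one.1
    (one_of dis (h3 ▸ mul_mem (inv_mem h2) hd) (mul_mem h1 (inv_mem hd')))
  have sK : cj (d⁻¹ * t) K = cj t K := by
    rw [← cj_cj, cj_eq_of_mem_normalizer (nK' (l2 (inv_mem hd)))]
  have sD : cj (d⁻¹ * t) E₂ = E₁ := by
    rw [← cj_cj, t2, cj_eq_of_mem_normalizer (n1 (l2 (inv_mem hd)))]
  refine ⟨E₂, d⁻¹ * t, aK, pg.to_le l2, ?_, w, l2.trans nK, act, ?_, ?_, sD ▸ dis, ?_⟩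
  · have h5 := H53.card_inf_mul_card_sup (l1.trans n2)
    rw [dis, card_bot, one_mul, ← le_antisymm hle (sup_le l2 l1), c8] at h5
    exact (Nat.eq_of_mul_eq_mul_right Nat.card_pos h5).symm
  · calc _ = d⁻¹ * (t * d * t⁻¹)⁻¹ * (t * t) := by group
      _ = d⁻¹ * d'⁻¹ * (d' * d) := by rw [h4, ← e, cc hd d' hd']
      _ = 1 := by group
  · rw [cj_sup, sK, sD, centralizer_sup']
    exact sup_le (le_inf cK (le_centralizer_comm.1 c1)) (le_inf c2 cc)
  · rw [sD]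
    refine le_antisymm (hT.trans (sup_le (hle.trans le_sup_left) (zpowers_le.2 ?_)))
      (sup_le (sup_le (l2.trans l0) (l1.trans l0))
        (zpowers_le.2 (mul_mem (inv_mem (l0 (l2 hd))) ht)))
    exact (mul_mem_cancel_left (mem_sup_left (mem_sup_left (inv_mem hd)))).1
      (mem_sup_right (mem_zpowers _))

section two

variable {T K L : Subgroup G} {t : G} (e : End2 T K L t)
include e

omit [Finite G] in
theorem tt_mem : t * t ∈ T ⊓ normalizer (K : Set G) :=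
  ⟨mul_mem e.t_mem e.t_mem, (e.idx _ (mul_mem e.t_mem e.t_mem)).resolve_right fun h =>
    e.t_not (by simpa using h)⟩

theorem t_norm : t ∈ normalizer ((T ⊓ normalizer (K : Set G) : Subgroup G) : Set G) :=
  H72.mem_norm fun d hd => mem_inf.2 ⟨mul_mem (mul_mem e.t_mem hd.1) (inv_mem e.t_mem),
    (e.idx _ (mul_mem e.t_mem hd.1)).resolve_left fun h =>
      e.t_not ((mul_mem_cancel_right (mem_inf.1 hd).2).1 h)⟩

omit [Finite G] in
theorem T_le : T ≤ T ⊓ normalizer (K : Set G) ⊔ zpowers t := fun s hs => by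
  rcases e.idx s hs with h | h
  · exact mem_sup_left ⟨hs, h⟩
  · exact (mul_mem_cancel_right (mem_sup_right (inv_mem (mem_zpowers t)))).1
      (mem_sup_left (mem_inf.2 ⟨mul_mem hs (inv_mem e.t_mem), h⟩))

theorem exists_dbl : ∃ x a b, Dbl (T ⊓ normalizer (K : Set G)) K L (cj t K) (cj t L) x a b
    (t * x * t⁻¹) (t * a * t⁻¹) (t * b * t⁻¹) := by
  have nL : T ⊓ normalizer (K : Set G) ≤ normalizer (L : Set G) := e.nL.le.trans inf_le_right
  obtain ⟨x, a, b, s, u, hab⟩ := exists_HW e.aK e.aL inf_le_right nL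
    (le_inf e.wK ((O_le _).trans le_normalizer))
    (e.nL ▸ le_inf e.wL ((O_le _).trans le_normalizer)) e.ne
  refine ⟨x, a, b, e.pg.to_inf_left, s, u, hab, s.cj (t_norm e), u.cj (t_norm e),
    fun h => hab (H93.NG.conj_comm_cancel h), e.cK, e.cL, cj_pCoreOf (p := 2) t L ▸ e.cKL, ?_,
    fun y hy h1 h2 h3 h4 => mem_bot.1 (e.free ▸ mem_inf.2 ⟨mem_inf.2 ⟨hy.1,
      mem_centralizer_iff_le.2 (sup_le h1 h2)⟩, mem_centralizer_iff_le.2 (sup_le h3 h4)⟩)⟩
  have := cj_le_cent e.cKL t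
  rwa [cj_cj, cj_eq_of_mem_normalizer (norm_O nL (tt_mem e)), cj_pCoreOf] at this

theorem card_le : Nat.card T ≤ 2 * Nat.card ↥(T ⊓ normalizer (K : Set G)) := by
  have h1 : (T ⊓ normalizer (K : Set G)).relIndex T = 2 :=
    relIndex_eq_two_iff_exists_notMem_and.2 ⟨t⁻¹, inv_mem e.t_mem,
      fun h => e.t_not (inv_mem_iff.1 (mem_inf.1 h).2), fun s hs => (e.idx s hs).symm.imp
        (fun h => mem_inf.2 ⟨mul_mem hs (inv_mem e.t_mem), h⟩) fun h => ⟨hs, h⟩⟩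
  have := H3.card_mul_relIndex (inf_le_left : T ⊓ normalizer (K : Set G) ≤ T)
  rw [h1] at this
  omega

theorem JJ_le_T0 : JJ T ≤ T ⊓ normalizer (K : Set G) := by
  obtain ⟨x, a, b, h⟩ := exists_dbl e
  refine H51.thompsonSubgroupOf_le_iff.2 fun A hA s hs => by_contra fun hn => ?_
  have hc := ea_le_c hA.2.1
  have h1 : s * t⁻¹ ∈ T ⊓ normalizer (K : Set G) := mem_inf.2 ⟨mul_mem (hA.1 hs) (inv_mem e.t_mem),
    (e.idx s (hA.1 hs)).resolve_left fun x => hn ⟨hA.1 hs, x⟩⟩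
  have h2 : cj s K = cj t K := by
    have := cj_eq_of_mem_normalizer (h.s'.n h1)
    rwa [cj_cj, inv_mul_cancel_right] at this
  obtain ⟨B, hB, ea, cB⟩ := h.exists_ea
  have h3 := hA.2.2 B (hB.trans inf_le_left) ea
  have h4 := h.card_ab (inf_le_left : T ⊓ normalizer (K : Set G) ⊓ A ≤ _)
    (inf_le_right.trans (hc.trans (centralizer_anti inf_le_right)))
  have h5 := card_le_of_le (show T ⊓ normalizer (K : Set G) ⊓ centralizer (K : Set G) ⊓
      (T ⊓ normalizer (K : Set G) ⊓ A) ≤ T ⊓ normalizer (K : Set G) ⊓ centralizer (K : Set G) ⊓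
        centralizer (cj t K : Set G) from fun y hy => mem_inf.2 ⟨hy.1, by
    rw [← h2, ← cj_centralizer, ← conj_eq_iff.2 (hc hy.2.2 s hs)]
    exact conj_mem_map_conj hy.1.2⟩)
  have hT : T ≤ normalizer ((T ⊓ normalizer (K : Set G) : Subgroup G) : Set G) :=
    (T_le e).trans (sup_le le_normalizer (zpowers_le.2 (t_norm e)))
  have h6 := H53.card_inf_mul_card_sup (hA.1.trans hT)
  have h7 := card_le_of_le (sup_le inf_le_left hA.1 : T ⊓ normalizer (K : Set G) ⊔ A ≤ T)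
  have h8 := card_le e
  have hp : 0 < Nat.card ↥(T ⊓ normalizer (K : Set G)) := Nat.card_pos
  have hq : 0 < Nat.card ↥(T ⊓ normalizer (K : Set G) ⊓ centralizer (K : Set G) ⊓
    centralizer (cj t K : Set G)) := Nat.card_pos
  have h9 : Nat.card A ≤ 2 * Nat.card ↥(T ⊓ normalizer (K : Set G) ⊓ A) :=
    Nat.le_of_mul_le_mul_left (by nlinarith) hp
  omega

theorem E_bot (hO : pResidual 2 G = ⊤) (hT : SylIn 2 T ⊤) (nJ : normalizer (JJ T : Set G) ≤ T) :
    T ⊓ normalizer (K : Set G) ⊓ centralizer (K : Set G) ⊓ centralizer (cj t K : Set G) = ⊥ := by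
  obtain ⟨x, a, b, h⟩ := exists_dbl e
  have key : ∀ T₁ : Subgroup G, T ≤ normalizer (T₁ : Set G) → ∀ s ∈ T, T ≤ T₁ ⊔ zpowers s →
      T₁ ≤ T → T ⊓ normalizer (K : Set G) ⊓ centralizer (K : Set G) ⊓
        centralizer (cj t K : Set G) ≤ T₁ := fun T₁ hn s hs hg h1 c hc =>
    transfer_mem hO hT nJ hn hs hg h1 hc.1.1.1 (h.E_sq hc) ((JJ_le_T0 e).trans (h.E_cent hc))
  set F := (pCoreOf 2 K ⊔ pCoreOf 2 L) ⊔ (pCoreOf 2 (cj t K) ⊔ pCoreOf 2 (cj t L)) with hF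
  have FT : F ≤ T :=
    (sup_le (sup_le h.s.O_le h.u.O_le) (sup_le h.s'.O_le h.u'.O_le)).trans inf_le_left
  by_cases hg : T ≤ F ⊔ zpowers t
  · refine le_bot_iff.1 fun c hc => mem_bot.2 (h.FE hc (key F ((T_le e).trans (sup_le
      (le_normalizer_sup (le_normalizer_sup (norm_O h.s.n) (norm_O h.u.n))
        (le_normalizer_sup (norm_O h.s'.n) (norm_O h.u'.n)))
      (zpowers_le.2 (mem_normalizer_of_cj_eq ?_)))) t e.t_mem hg FT hc))
    rw [hF, cj_sup, cj_sup, cj_sup, cj_pCoreOf, cj_pCoreOf, cj_pCoreOf, cj_pCoreOf, cj_cj, cj_cj,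
      cj_eq_of_mem_normalizer (h.s.n (tt_mem e)), cj_eq_of_mem_normalizer (h.u.n (tt_mem e)),
      sup_comm]
  · obtain ⟨M, h1, h2, h3, s, hs, h4⟩ := exists_cov e.pg
      (lt_of_le_of_ne (sup_le FT (zpowers_le.2 e.t_mem)) fun x => hg x.ge)
    exact absurd ((T_le e).trans (sup_le (h.le_FE.trans (sup_le (le_sup_left.trans h1)
      (key M h3 s hs h4 h2.le))) (le_sup_right.trans h1))) h2.not_ge

theorem end2 (hO : pResidual 2 G = ⊤) (hT : SylIn 2 T ⊤) (nJ : normalizer (JJ T : Set G) ≤ T) :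
    ∃ (D : Subgroup G) (s : G), SW T K D s := by
  obtain ⟨x, a, b, h⟩ := exists_dbl e
  have hE := E_bot e hO hT nJ
  obtain ⟨b', hb', eb⟩ := h.symm.exists_d
  have tK : cj t (cj t K) = K := by rw [cj_cj, cj_eq_of_mem_normalizer (tt_mem e).2]
  refine sw_of e.aK h.pg inf_le_left e.t_mem inf_le_left inf_le_left inf_le_right h.s'.n
    inf_le_right inf_le_right h.norm_E h.symm.norm_E h.le_EE h.card_T h.symm.W_le
    (fun c => h.ab ?_) (by rw [cj_inf, cj_eq_of_mem_normalizer (t_norm e), cj_centralizer])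
    (by rw [cj_inf, cj_eq_of_mem_normalizer (t_norm e), cj_centralizer, tK])
    (le_bot_iff.1 fun y hy => hE ▸ mem_inf.2 ⟨hy.2, hy.1.2⟩) (tt_mem e) (T_le e) e.cK
  have h1 := c hb' a h.s.a_mem
  rcases eb with rfl | rfl
  · exact h1
  · rwa [mul_assoc b, ← (h.W_le h.s'.x_mem).2 a (O_le _ h.s.a_mem), ← mul_assoc, ← mul_assoc b,
      mul_left_inj] at h1

end two

end Cfsg.Agent.H57.QA
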