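import Cfsg.Agent.H57.T3ClsB
import Cfsg.Agent.H13.T3Pos

/-! The classification of the finite irreducible Coxeter systems with bonds 2, 3, 4, 6, 8. -/

set_option autoImplicit false

namespace Cfsg.Agent.H57.T3Cls

open Cfsg.Agent.Lead.T3 Finset Real

theorem cos_le {k m : ℕ} (hk : 0 < k) (h : k ≤ m) : -cos (π / m) ≤ -cos (π / k) := by
  have h1 : (1 : ℝ) ≤ k := by exact_mod_cast hk
  have h2 : (k : ℝ) ≤ m := by exact_mod_cast h
  exact neg_le_neg (cos_le_cos_of_nonneg_of_le_pi (by positivity) (div_le_self pi_pos.le h1)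
    (div_le_div_of_nonneg_left pi_pos.le (by linarith) h2))

/-- a connected positive definite Coxeter matrix -/
structure Cm {I : Type} [Fintype I] (m : I → I → ℕ) : Prop where
  diag : ∀ i, m i i = 1
  sym : ∀ i j, m i j = m j i
  mem : ∀ i j, i ≠ j → m i j ∈ ({2, 3, 4, 6, 8} : Set ℕ)
  pd : ∀ x : I → ℝ, x ≠ 0 → 0 < ∑ i, ∑ j, x i * x j * (-cos (π / m i j))
  con : ∀ J : Set I, J.Nonempty → Jᶜ.Nonempty → ∃ i ∈ J, ∃ j ∉ J, m i j ≠ 2

variable {I : Type} [Fintype I] {m : I → I → ℕ}

theorem Cm.two (C : Cm m) {i j : I} (h : i ≠ j) : 2 ≤ m i j := by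
  have := C.mem i j h
  simp only [Set.mem_insert_iff, Set.mem_singleton_iff] at this
  omega

theorem Cm.gr (C : Cm m) {N : ℕ} (g : ℕ → I) (inj : ∀ a < N, ∀ b < N, g a = g b → a = b)
    {M : ℕ → ℕ → ℕ} (hM : ∀ a < N, ∀ b < N, m (g a) (g b) = M a b) :
    Gr N M fun a b => -cos (π / m (g a) (g b)) where
  sym a b := by rw [C.sym]
  diag a := by simp [C.diag]
  np a ha b hb ne := by
    simpa using cos_le two_pos (C.two fun e => ne (inj a ha b hb e))
  h3 a ha b hb h := by
    have := cos_le three_pos (h.trans (hM a ha b hb).ge)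
    rwa [Nat.cast_ofNat, cos_pi_div_three] at this
  h4 a ha b hb h := by
    have := cos_le four_pos (h.trans (hM a ha b hb).ge)
    rwa [Nat.cast_ofNat, cos_pi_div_four] at this
  pd x hx := by
    classical
    obtain ⟨a, ha, hx⟩ := hx
    have key : ∀ f : I → ℝ, ∑ i, (∑ a ∈ range N, if g a = i then x a else 0) * f i =
        ∑ a ∈ range N, x a * f (g a) := fun f => by
      simp only [sum_mul]
      rw [sum_comm]
      exact sum_congr rfl fun a _ => by simp
    have := C.pd (fun i => ∑ a ∈ range N, if g a = i then x a else 0) fun e => hx (by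
      have := congrFun e (g a)
      simp only [Pi.zero_apply] at this
      rwa [sum_eq_single a (fun b hb ne => if_neg fun e => ne (inj b (mem_range.1 hb) a ha e))
        (fun h => absurd (mem_range.2 ha) h), if_pos rfl] at this)
    simp only [mul_assoc, ← mul_sum, key] at this
    simpa only [Qf, mul_assoc, ← mul_sum] using this

theorem Cm.six' (C : Cm m) {i j k : I} (h1 : 6 ≤ m i j) (h2 : 3 ≤ m i k) (ne : j ≠ k) : False := by
  have ij : i ≠ j := fun e => by rw [e, C.diag] at h1; omega
  have ik : i ≠ k := fun e => by rw [e, C.diag] at h2; omega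
  have G := C.gr (N := 3) (fun a => if a = 0 then i else if a = 1 then j else k) (by grind)
    fun _ _ _ _ => rfl
  have s : √3 * √3 = 3 := Real.mul_self_sqrt (by norm_num)
  have := G.tree 2 (fun a => a) (fun _ => 0) (fun b => if b = 0 then 2 else if b = 1 then √3 else 1)
    (fun b => if b = 1 then √3 / 2 else 1 / 2) (fun a => by split_ifs <;> positivity) (by norm_num)
    (by grind) fun b hb h0 => ⟨h0, by
      obtain rfl | rfl : b = 1 ∨ b = 2 := by omega
      · have := cos_le (by norm_num) h1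
        rw [Nat.cast_ofNat, cos_pi_div_six] at this
        simpa using this
      · exact G.h3 0 (by norm_num) 2 (by norm_num) (by simpa using h2)⟩
  norm_num [sum_range_succ] at this
  nlinarith

theorem Cm.six (C : Cm m) (h3 : 3 ≤ Fintype.card I) (i j : I) : m i j ≤ 4 := by
  classical
  by_contra h
  have ij : i ≠ j := fun e => by rw [e, C.diag] at h; omega
  have h6 : 6 ≤ m i j := by
    have := C.mem i j ij
    simp only [Set.mem_insert_iff, Set.mem_singleton_iff] at this
    omega
  obtain ⟨a, ha, k, hk, e⟩ := C.con {i, j} ⟨i, .inl rfl⟩ (by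
    by_contra h
    rw [Set.not_nonempty_iff_eq_empty, Set.compl_empty_iff] at h
    have : (univ : Finset I) ⊆ {i, j} := fun a _ => by simpa using (h ▸ Set.mem_univ a :)
    have := (card_le_card this).trans card_le_two
    rw [card_univ] at this
    omega)
  have ak : a ≠ k := fun e => hk (e ▸ ha)
  have := C.two ak
  simp only [Set.mem_insert_iff, Set.mem_singleton_iff, not_or] at ha hk
  rcases ha with rfl | rfl
  · exact C.six' h6 (k := k) (by omega) (Ne.symm hk.2)
  · exact C.six' (C.sym i a ▸ h6) (k := k) (by omega) (Ne.symm hk.1)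

theorem tmN_eq_one {par : ℕ → ℕ} {sp a b : ℕ} (h : tmN par sp a b = 1) : a = b := by
  unfold tmN at h
  grind

theorem Cm.grow (C : Cm m) (h3 : 3 ≤ Fintype.card I) (n : ℕ) (h1 : 1 ≤ n) :
    n ≤ Fintype.card I → ∃ (e : ℕ → I) (par : ℕ → ℕ) (sp : ℕ), TypN n par sp ∧
      ∀ a < n, ∀ b < n, m (e a) (e b) = tmN par sp a b := by
  classical
  induction n, h1 using Nat.le_induction with
  | base =>
    intro h
    obtain ⟨i⟩ := Fintype.card_pos_iff.1 h
    refine ⟨fun _ => i, _, _, .inl ⟨le_rfl, rfl, rfl⟩, fun a ha b hb => ?_⟩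
    rw [C.diag, tmN, if_pos (by omega)]
  | succ n h1 ih =>
    intro h
    obtain ⟨e, par, sp, T, he⟩ := ih (by omega)
    obtain ⟨_, ⟨a0, h0, rfl⟩, v, hv, hl⟩ := C.con (e '' Set.Iio n) ⟨_, 0, h1, rfl⟩ (by
      by_contra h'
      rw [Set.not_nonempty_iff_eq_empty, Set.compl_empty_iff] at h'
      have : (univ : Finset I) ⊆ (range n).image e := fun a _ => by
        simpa using (h' ▸ Set.mem_univ a :)
      have := (card_le_card this).trans card_image_le
      rw [card_univ, card_range] at this
      omega)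
    have nv : ∀ a < n, e a ≠ v := fun a ha e => hv ⟨a, ha, e⟩
    have ie : ∀ a < n, ∀ b < n, e a = e b → a = b := fun a ha b hb h =>
      tmN_eq_one (by rw [← he a ha b hb, h, C.diag])
    replace h0 : a0 < n := h0
    set g : ℕ → I := fun a => if a = n then v else e a with hg
    have inj : ∀ a < n + 1, ∀ b < n + 1, g a = g b → a = b := by grind
    have gn : g n = v := if_pos rfl
    have gl : ∀ a < n, g a = e a := fun a ha => if_neg ha.ne
    have G := C.gr g inj fun _ _ _ _ => rfl
    have h2 := C.two (nv a0 h0)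
    have one : ∀ b < n, b ≠ a0 → m (e b) v = 2 := fun b hb ne => by
      by_contra h'
      have := C.two (nv b hb)
      refine G.cyc (G.okI 0 par (n - 1) (by omega) (by omega) fun b hb h0 => ?_) (a := b) (b := a0)
        (c := n) ⟨by omega, by omega⟩ (by omega) ⟨by omega, by omega⟩ (by omega) ne
        (by simp; omega) (by omega) (by rw [gn, gl b hb]; omega) (by rw [gn, gl a0 h0]; omega)
      have := T.par_lt h0
      refine ⟨by omega, this, ?_⟩
      rw [gl _ (by omega), gl _ (by omega), he _ (by omega) _ (by omega)]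
      unfold tmN
      grind
    have hM : ∀ a < n + 1, ∀ b < n + 1, m (g a) (g b) = Mx n par sp a0 (m (e a0) v) a b := by
      intro a ha b hb
      have := C.diag v
      have := C.sym v (e b)
      unfold Mx
      grind
    obtain ⟨par', sp', T', ρ, hρ⟩ := stepT T (by have := C.six h3 (e a0) v; omega) h0
      (C.gr g inj hM)
    exact ⟨fun a => g (ρ a), par', sp', T', fun a ha b hb => by
      rw [hM _ (hρ a ha).1 _ (hρ b hb).1, (hρ a ha).2 b hb]⟩

/-- **CLS** -/
theorem clsStmt : ClsStmt := by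
  intro I W _ _ X h3 con mem
  have : Finite I := Nat.finite_of_card_ne_zero (by omega)
  have := Fintype.ofFinite I
  rw [Nat.card_eq_fintype_card] at h3
  have C : Cm X.m := ⟨fun i => by rw [Cox.m, X.s_mul_s, orderOf_one], fun i j => by
    rw [Cox.m, Cox.m, ← orderOf_inv, mul_inv_rev, X.inv_s, X.inv_s], mem, H13.T3Pos.pos X, con⟩
  obtain ⟨e, par, sp, T, he⟩ := C.grow h3 _ (by omega) le_rfl
  refine ⟨Fintype.card I, par, sp, ?_, Equiv.ofBijective (fun a => e a.1)
    ((Fintype.bijective_iff_injective_and_card _).2 ⟨fun a b h => Fin.ext (tmN_eq_one (by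
      rw [← he a a.2 b b.2, show e a = e b from h, C.diag])), Fintype.card_fin _⟩), fun a b => ?_⟩
  · rcases T with h | h | h | h | h
    exacts [.inl ⟨.inl ⟨h3, h.2.1⟩, h.2.2⟩, .inl ⟨.inr (.inl ⟨h.1, h.2.1⟩), h.2.2⟩,
      .inl ⟨.inr (.inr ⟨h.1, h.2.1⟩), h.2.2⟩, .inr (.inl ⟨h3, h.2⟩), .inr (.inr h)]
  · rw [Equiv.ofBijective_apply, Equiv.ofBijective_apply, he a a.2 b b.2]
    simp only [tmN, tm, Fin.ext_iff]

end Cfsg.Agent.H57.T3Cls
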