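import Mathlib

/-! Forbidden subdiagrams of a positive definite Coxeter diagram. -/

set_option autoImplicit false

namespace Cfsg.Agent.H57.T3Cls

open Finset

/-- the quadratic form -/
def Qf (N : ℕ) (β : ℕ → ℕ → ℝ) (x : ℕ → ℝ) : ℝ :=
  ∑ a ∈ range N, ∑ b ∈ range N, x a * x b * β a b

/-- a positive definite diagram on `0, …, N - 1` -/
structure Gr (N : ℕ) (M : ℕ → ℕ → ℕ) (β : ℕ → ℕ → ℝ) : Prop where
  sym : ∀ a b, β a b = β b a
  diag : ∀ a, β a a = 1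
  np : ∀ a < N, ∀ b < N, a ≠ b → β a b ≤ 0
  h3 : ∀ a < N, ∀ b < N, 3 ≤ M a b → β a b ≤ -(1 / 2)
  h4 : ∀ a < N, ∀ b < N, 4 ≤ M a b → β a b ≤ -(√2 / 2)
  pd : ∀ x : ℕ → ℝ, (∃ a < N, x a ≠ 0) → 0 < Qf N β x

variable {N : ℕ} {M : ℕ → ℕ → ℕ} {β : ℕ → ℕ → ℝ}

/-- one more vertex -/
def ad (x : ℕ → ℝ) (c : ℕ) (t : ℝ) (a : ℕ) : ℝ := x a + if a = c then t else 0

theorem ad_ne {x : ℕ → ℝ} {c a : ℕ} {t : ℝ} (h : a ≠ c) : ad x c t a = x a := by simp [ad, h]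

theorem ad_nonneg {x : ℕ → ℝ} (hx : ∀ a, 0 ≤ x a) (c : ℕ) {t : ℝ} (ht : 0 ≤ t) (a : ℕ) :
    0 ≤ ad x c t a := add_nonneg (hx a) (by split_ifs; exacts [ht, le_rfl])

theorem Gr.step (G : Gr N M β) {x : ℕ → ℝ} (hx : ∀ a, 0 ≤ x a) {c : ℕ} (hc : c < N) (h0 : x c = 0)
    {t : ℝ} (ht : 0 ≤ t) (U : Finset ℕ) (hU : U ⊆ range N) :
    Qf N β (ad x c t) ≤ Qf N β x + t ^ 2 + 2 * t * ∑ a ∈ U, x a * β a c := by
  have h1 : ∑ a ∈ range N, x a * β a c ≤ ∑ a ∈ U, x a * β a c := by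
    rw [← neg_le_neg_iff, ← sum_neg_distrib, ← sum_neg_distrib]
    refine sum_le_sum_of_subset_of_nonneg hU fun a ha _ => ?_
    by_cases e : a = c
    · simp [e, h0]
    · exact neg_nonneg.2 (mul_nonpos_of_nonneg_of_nonpos (hx a) (G.np a (mem_range.1 ha) c hc e))
  have h2 : Qf N β (ad x c t) = Qf N β x + t ^ 2 + 2 * t * ∑ a ∈ range N, x a * β a c := by
    simp only [Qf, ad, add_mul, mul_add, sum_add_distrib, ite_mul, mul_ite, zero_mul, mul_zero,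
      sum_ite_eq', mem_range, hc, if_true, G.diag]
    have e1 : ∑ a ∈ range N, ∑ b ∈ range N, (if a = c then t * x b * β a b else 0) =
        t * ∑ a ∈ range N, x a * β a c := by
      rw [sum_comm, mul_sum]
      exact sum_congr rfl fun b _ => by simp [hc, G.sym c b, mul_assoc]
    have e2 : ∑ a ∈ range N, x a * t * β a c = t * ∑ a ∈ range N, x a * β a c := by
      rw [mul_sum]
      exact sum_congr rfl fun b _ => by ring
    rw [e1, e2]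
    ring
  rw [h2]
  gcongr

theorem Qf_zero : Qf N β (fun _ => 0) = 0 := by simp [Qf]

theorem Gr.tree (G : Gr N M β) (k : ℕ) (g par : ℕ → ℕ) (x γ : ℕ → ℝ) (hx : ∀ a, 0 ≤ x a)
    (x0 : x 0 ≠ 0) (inj : ∀ a ≤ k, g a < N ∧ ∀ b ≤ k, g a = g b → a = b)
    (hp : ∀ b ≤ k, 0 < b → par b < b ∧ β (g (par b)) (g b) ≤ -γ b) :
    0 < x 0 ^ 2 + ∑ b ∈ range k, (x (b + 1) ^ 2 - 2 * x (b + 1) * x (par (b + 1)) * γ (b + 1)) := by
  have key : ∀ j ≤ k, ∃ y : ℕ → ℝ, (∀ a, 0 ≤ y a) ∧ (∀ b ≤ j, y (g b) = x b) ∧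
      (∀ a, (∀ b ≤ j, g b ≠ a) → y a = 0) ∧ Qf N β y ≤
        x 0 ^ 2 + ∑ b ∈ range j, (x (b + 1) ^ 2 - 2 * x (b + 1) * x (par (b + 1)) * γ (b + 1)) := by
    intro j
    induction j with
    | zero =>
      intro hj
      refine ⟨ad (fun _ => 0) (g 0) (x 0), ad_nonneg (fun _ => le_rfl) _ (hx 0), fun b hb => ?_,
        fun a ha => ad_ne (ha 0 le_rfl).symm, ?_⟩
      · simp [ad, Nat.le_zero.1 hb]
      · simpa [Qf_zero] using G.step (x := fun _ => 0) (fun _ => le_rfl) (inj 0 hj).1 rfl (hx 0) ∅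
          (empty_subset _)
    | succ j ih =>
      intro hj
      obtain ⟨y, y1, y2, y3, y4⟩ := ih (by omega)
      have ne : ∀ b ≤ j, g b ≠ g (j + 1) := fun b hb e => by
        have := (inj b (by omega)).2 _ hj e
        omega
      obtain ⟨p1, p2⟩ := hp _ hj (by omega)
      refine ⟨ad y (g (j + 1)) (x (j + 1)), ad_nonneg y1 _ (hx _), fun b hb => ?_,
        fun a ha => ?_, ?_⟩
      · rcases hb.eq_or_lt with rfl | hb
        · simp [ad, y3 _ ne]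
        · rw [ad_ne (ne b (by omega)), y2 b (by omega)]
      · rw [ad_ne (ha _ le_rfl).symm, y3 a fun b hb => ha b (by omega)]
      · have := G.step y1 (inj _ hj).1 (y3 _ ne) (hx (j + 1)) {g (par (j + 1))}
          (by simpa using (inj _ (by omega)).1)
        rw [sum_singleton, y2 _ (by omega)] at this
        rw [sum_range_succ]
        have h5 := mul_le_mul_of_nonneg_left p2 (mul_nonneg (hx (j + 1)) (hx (par (j + 1))))
        nlinarith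
  obtain ⟨y, -, y2, -, y4⟩ := key k le_rfl
  exact (G.pd y ⟨g 0, (inj 0 (by omega)).1, by rwa [y2 0 (by omega)]⟩).trans_le y4

theorem Gr.tree3 (G : Gr N M β) (k : ℕ) (g par z : ℕ → ℕ) (z0 : z 0 ≠ 0)
    (hp : ∀ b, 0 < b → par b < b) (inj : ∀ a ≤ k, g a < N ∧ ∀ b ≤ k, g a = g b → a = b)
    (he : ∀ b ≤ k, 0 < b → 3 ≤ M (g (par b)) (g b)) :
    ∑ b ∈ range k, z (b + 1) * z (par (b + 1)) < z 0 ^ 2 + ∑ b ∈ range k, z (b + 1) ^ 2 := by
  have := G.tree k g par (fun a => z a) (fun _ => 1 / 2) (fun _ => Nat.cast_nonneg _)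
    (Nat.cast_ne_zero.2 z0) inj fun b hb h0 => ⟨hp b h0,
      G.h3 _ (inj _ ((hp b h0).le.trans hb)).1 _ (inj b hb).1 (he b hb h0)⟩
  have e : ∑ b ∈ range k, 2 * (z (b + 1) : ℝ) * z (par (b + 1)) * (1 / 2) =
      ∑ b ∈ range k, (z (b + 1) : ℝ) * z (par (b + 1)) := sum_congr rfl fun b _ => by ring
  rw [sum_sub_distrib, e] at this
  have h : ((∑ b ∈ range k, z (b + 1) * z (par (b + 1)) : ℕ) : ℝ) <
      ((z 0 ^ 2 + ∑ b ∈ range k, z (b + 1) ^ 2 : ℕ) : ℝ) := by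
    push_cast
    linarith
  exact_mod_cast h

theorem Gr.e6 (G : Gr N M β) (g : ℕ → ℕ) (inj : ∀ a ≤ 6, g a < N ∧ ∀ b ≤ 6, g a = g b → a = b)
    (he : ∀ b ≤ 6, 0 < b → 3 ≤ M (g (if b = 5 then 2 else b - 1)) (g b)) : False :=
  absurd (G.tree3 6 g (fun b => if b = 5 then 2 else b - 1) (fun b => [1, 2, 3, 2, 1, 2, 1].getD b 0)
    (by decide) (fun b h => by split_ifs <;> omega) inj he) (by decide)

theorem Gr.e7 (G : Gr N M β) (g : ℕ → ℕ) (inj : ∀ a ≤ 7, g a < N ∧ ∀ b ≤ 7, g a = g b → a = b)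
    (he : ∀ b ≤ 7, 0 < b → 3 ≤ M (g (if b = 7 then 3 else b - 1)) (g b)) : False :=
  absurd (G.tree3 7 g (fun b => if b = 7 then 3 else b - 1)
    (fun b => [1, 2, 3, 4, 3, 2, 1, 2].getD b 0)
    (by decide) (fun b h => by split_ifs <;> omega) inj he) (by decide)

theorem Gr.e8 (G : Gr N M β) (g : ℕ → ℕ) (inj : ∀ a ≤ 8, g a < N ∧ ∀ b ≤ 8, g a = g b → a = b)
    (he : ∀ b ≤ 8, 0 < b → 3 ≤ M (g (if b = 8 then 2 else b - 1)) (g b)) : False :=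
  absurd (G.tree3 8 g (fun b => if b = 8 then 2 else b - 1)
    (fun b => [2, 4, 6, 5, 4, 3, 2, 1, 3].getD b 0)
    (by decide) (fun b h => by split_ifs <;> omega) inj he) (by decide)

theorem Gr.f4 (G : Gr N M β) (g : ℕ → ℕ) (inj : ∀ a ≤ 4, g a < N ∧ ∀ b ≤ 4, g a = g b → a = b)
    (he : ∀ b ≤ 4, 0 < b → (if b = 3 then 4 else 3) ≤ M (g (b - 1)) (g b)) : False := by
  have s : √2 * √2 = 2 := Real.mul_self_sqrt (by norm_num)
  have := G.tree 4 g (fun b => b - 1)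
    (fun b => if b = 3 then 2 * √2 else if b = 4 then √2 else b + 1)
    (fun b => if b = 3 then √2 / 2 else 1 / 2) (fun a => by split_ifs <;> positivity) (by norm_num)
    inj fun b hb h0 => ⟨by omega, by
      have := he b hb h0
      split_ifs at this ⊢
      exacts [G.h4 _ (inj _ (by omega)).1 _ (inj b hb).1 this,
        G.h3 _ (inj _ (by omega)).1 _ (inj b hb).1 this]⟩
  norm_num [sum_range_succ] at this
  nlinarith

variable (N β) in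
/-- a vector with weight two on `S`, support in `T` and norm at most `r` -/
def Ok (S T : Set ℕ) (r : ℝ) : Prop :=
  ∃ x : ℕ → ℝ, (∀ a, 0 ≤ x a) ∧ (∀ a ∈ S, x a = 2) ∧ (∀ a ∉ T, x a = 0) ∧ Qf N β x ≤ r

variable {S T : Set ℕ} {r : ℝ} {a c : ℕ}

theorem Gr.fin (G : Gr N M β) (h : Ok N β S T r) (hr : r ≤ 0) (ha : a ∈ S) (h1 : a < N) : False :=
  let ⟨x, _, x2, _, x4⟩ := h
  absurd (G.pd x ⟨a, h1, by rw [x2 a ha]; norm_num⟩) (not_lt.2 (x4.trans hr))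

theorem Gr.cap (G : Gr N M β) (h : Ok N β S T r) (hc : c ∉ T) (h2 : c < N) {t : ℝ} (ht : 0 ≤ t)
    (U : Finset ℕ) (hU : ∀ a ∈ U, a ∈ S ∧ a < N) {γ r' : ℝ} (hγ : ∑ a ∈ U, β a c ≤ -γ)
    (hr : r + t ^ 2 - 4 * t * γ ≤ r') {S' : Set ℕ} (hS : ∀ a ∈ S', a ∈ S ∨ (a = c ∧ t = 2)) :
    Ok N β S' (insert c T) r' := by
  obtain ⟨x, x1, x2, x3, x4⟩ := h
  refine ⟨ad x c t, ad_nonneg x1 _ ht, fun a ha => ?_, fun a ha => ?_, ?_⟩
  · rcases hS a ha with e | ⟨rfl, rfl⟩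
    · rw [ad_ne, x2 a e]
      rintro rfl
      have := x2 a e
      rw [x3 a hc] at this
      norm_num at this
    · simp [ad, x3 a hc]
  · rw [Set.mem_insert_iff, not_or] at ha
    rw [ad_ne ha.1, x3 a ha.2]
  · have := G.step x1 h2 (x3 c hc) ht U fun a ha => mem_range.2 (hU a ha).2
    rw [sum_congr rfl (g := fun a => 2 * β a c) fun a ha => by rw [x2 a (hU a ha).1],
      ← mul_sum] at this
    nlinarith [mul_le_mul_of_nonneg_left hγ ht]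

theorem Gr.cap3 (G : Gr N M β) (h : Ok N β S T r) (ha : a ∈ S) (h1 : a < N) (hc : c ∉ T)
    (h2 : c < N) (e : 3 ≤ M a c) : Ok N β S (insert c T) (r - 1) :=
  G.cap h hc h2 zero_le_one {a} (by simp [ha, h1]) (γ := 1 / 2)
    (by simpa using G.h3 a h1 c h2 e) (by linarith) fun _ h => .inl h

theorem Gr.cap4 (G : Gr N M β) (h : Ok N β S T r) (ha : a ∈ S) (h1 : a < N) (hc : c ∉ T)
    (h2 : c < N) (e : 4 ≤ M a c) : Ok N β S (insert c T) (r - 2) :=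
  G.cap h hc h2 (Real.sqrt_nonneg 2) {a} (by simp [ha, h1]) (γ := √2 / 2)
    (by simpa using G.h4 a h1 c h2 e)
    (by nlinarith [Real.mul_self_sqrt (show (0 : ℝ) ≤ 2 by norm_num)]) fun _ h => .inl h

theorem Gr.grow (G : Gr N M β) (h : Ok N β S S r) (ha : a ∈ S) (h1 : a < N) (hc : c ∉ S)
    (h2 : c < N) (e : 3 ≤ M a c) : Ok N β (insert c S) (insert c S) r :=
  G.cap h hc h2 zero_le_two {a} (by simp [ha, h1]) (γ := 1 / 2)
    (by simpa using G.h3 a h1 c h2 e) (by linarith) fun _ h => h.symm.imp_right fun e => ⟨e, rfl⟩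

theorem Gr.cyc (G : Gr N M β) (h : Ok N β S S 4) {b : ℕ} (ha : a ∈ S) (h1 : a < N) (hb : b ∈ S)
    (h3 : b < N) (ne : a ≠ b) (hc : c ∉ S) (h2 : c < N) (e : 3 ≤ M a c) (e' : 3 ≤ M b c) : False :=
  G.fin (G.cap h hc h2 zero_le_two {a, b} (by simp [ha, h1, hb, h3]) (γ := 1) (by
    rw [sum_pair ne]; linarith [G.h3 a h1 c h2 e, G.h3 b h3 c h2 e']) (r' := 0) (by norm_num)
    fun _ h => .inl h) le_rfl ha h1

theorem Gr.okI (G : Gr N M β) (i : ℕ) (p : ℕ → ℕ) : ∀ j, i ≤ j → j < N →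
    (∀ b ≤ j, i < b → i ≤ p b ∧ p b < b ∧ 3 ≤ M (p b) b) → Ok N β (Set.Icc i j) (Set.Icc i j) 4 := by
  intro j hj
  induction j, hj using Nat.le_induction with
  | base =>
    intro h _
    have := G.cap (S := ∅) (T := ∅) (r := 0) ⟨fun _ => 0, fun _ => le_rfl, by simp, by simp,
      Qf_zero.le⟩ (Set.notMem_empty i) h zero_le_two ∅ (by simp) (γ := 0) (by simp) (r' := 4)
      (by norm_num) (S' := {i}) fun _ h => .inr ⟨h, rfl⟩
    simpa using this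
  | succ j hj ih =>
    intro h e
    obtain ⟨e1, e2, e3⟩ := e (j + 1) le_rfl (by omega)
    have := G.grow (ih (by omega) fun b hb => e b (by omega)) (a := p (j + 1)) ⟨e1, by omega⟩
      (by omega) (c := j + 1) (by simp) h e3
    convert this using 1 <;> ext a <;> simp only [Set.mem_Icc, Set.mem_insert_iff] <;> omega

/-- an interval and one more vertex -/
def IE (i j e a : ℕ) : Prop := (i ≤ a ∧ a ≤ j) ∨ a = e

variable (N M) in
/-- `i, …, j` is a path and `e` lies on it or is joined to `i` -/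
def Pth (i j e : ℕ) : Prop :=
  i ≤ j ∧ j < N ∧ e < N ∧ (e = i ∨ (j < e ∧ 3 ≤ M i e)) ∧ ∀ b ≤ j, i < b → 3 ≤ M (b - 1) b

theorem Gr.okE (G : Gr N M β) {i j e : ℕ} (h : Pth N M i j e) :
    Ok N β {a | IE i j e a} {a | IE i j e a} 4 := by
  obtain ⟨h1, h2, h3, h4, h5⟩ := h
  have := G.okI i (fun b => b - 1) j h1 h2 fun b hb h0 => ⟨by omega, by omega, h5 b hb h0⟩
  rcases h4 with rfl | ⟨h4, h6⟩
  · convert this using 1 <;> ext a <;> simp only [IE, Set.mem_ofPred_eq, Set.mem_Icc] <;> omega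
  · convert G.grow this (a := i) ⟨le_rfl, h1⟩ (by omega) (c := e) (by simp; omega) h3 h6
      using 1 <;> ext a <;> simp only [IE, Set.mem_ofPred_eq, Set.mem_Icc, Set.mem_insert_iff] <;>
      omega

variable (N M) in
/-- a vertex `c` attached to the vertex `a` of the path -/
def Cp (i j e l a c : ℕ) : Prop := IE i j e a ∧ a < N ∧ ¬ IE i j e c ∧ c < N ∧ l ≤ M a c

theorem Gr.s44 (G : Gr N M β) (i j e a1 c1 a2 c2 : ℕ) (h : Pth N M i j e)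
    (h1 : Cp N M i j e 4 a1 c1) (h2 : Cp N M i j e 4 a2 c2) (ne : c2 ≠ c1) : False :=
  G.fin (G.cap4 (G.cap4 (G.okE h) h1.1 h1.2.1 h1.2.2.1 h1.2.2.2.1 h1.2.2.2.2) h2.1 h2.2.1
    (by simp [ne, h2.2.2.1]) h2.2.2.2.1 h2.2.2.2.2) (by norm_num) h1.1 h1.2.1

theorem Gr.s33 (G : Gr N M β) {i j e a1 c1 a2 c2 : ℕ} (h : Pth N M i j e)
    (h1 : Cp N M i j e 3 a1 c1) (h2 : Cp N M i j e 3 a2 c2) (ne : c2 ≠ c1) :
    Ok N β {a | IE i j e a} (insert c2 (insert c1 {a | IE i j e a})) (4 - 1 - 1) :=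
  G.cap3 (G.cap3 (G.okE h) h1.1 h1.2.1 h1.2.2.1 h1.2.2.2.1 h1.2.2.2.2) h2.1 h2.2.1
    (by simp [ne, h2.2.2.1]) h2.2.2.2.1 h2.2.2.2.2

theorem Gr.s334 (G : Gr N M β) (i j e a1 c1 a2 c2 a3 c3 : ℕ) (h : Pth N M i j e)
    (h1 : Cp N M i j e 3 a1 c1) (h2 : Cp N M i j e 3 a2 c2) (h3 : Cp N M i j e 4 a3 c3)
    (ne : c2 ≠ c1 ∧ c3 ≠ c1 ∧ c3 ≠ c2) : False :=
  G.fin (G.cap4 (G.s33 h h1 h2 ne.1) h3.1 h3.2.1 (by simp [ne, h3.2.2.1]) h3.2.2.2.1 h3.2.2.2.2)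
    (by norm_num) h1.1 h1.2.1

theorem Gr.s3333 (G : Gr N M β) (i j e a1 c1 a2 c2 a3 c3 a4 c4 : ℕ) (h : Pth N M i j e)
    (h1 : Cp N M i j e 3 a1 c1) (h2 : Cp N M i j e 3 a2 c2) (h3 : Cp N M i j e 3 a3 c3)
    (h4 : Cp N M i j e 3 a4 c4)
    (ne : c2 ≠ c1 ∧ c3 ≠ c1 ∧ c3 ≠ c2 ∧ c4 ≠ c1 ∧ c4 ≠ c2 ∧ c4 ≠ c3) : False :=
  G.fin (G.cap3 (G.cap3 (G.s33 h h1 h2 ne.1) h3.1 h3.2.1 (by simp [ne, h3.2.2.1]) h3.2.2.2.1
    h3.2.2.2.2) h4.1 h4.2.1 (by simp [ne, h4.2.2.1]) h4.2.2.2.1 h4.2.2.2.2)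
    (by norm_num) h1.1 h1.2.1

end Cfsg.Agent.H57.T3Cls
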