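import Cfsg.Agent.Lead.T3Defs
import Cfsg.Agent.H57.T3ClsA

/-! Adding one vertex to a Dynkin diagram. -/

set_option autoImplicit false

namespace Cfsg.Agent.H57.T3Cls

open Cfsg.Agent.Lead.T3

/-- the Coxeter matrix of a tree -/
def tmN (par : ℕ → ℕ) (sp a b : ℕ) : ℕ :=
  if a = b then 1 else
    if (b ≠ 0 ∧ par b = a) ∨ (a ≠ 0 ∧ par a = b) then (if max a b = sp then 4 else 3) else 2

/-- the tree with a new vertex `n` joined to `a0` by a bond of order `l` -/
def Mx (n : ℕ) (par : ℕ → ℕ) (sp a0 l a b : ℕ) : ℕ :=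
  if a = n then (if b = n then 1 else if b = a0 then l else 2) else
    if b = n then (if a = a0 then l else 2) else tmN par sp a b

/-- the types, small ranks included -/
def TypN (n : ℕ) (par : ℕ → ℕ) (sp : ℕ) : Prop :=
  (1 ≤ n ∧ par = parA ∧ sp = 0) ∨ (4 ≤ n ∧ par = parD n ∧ sp = 0) ∨
    ((n = 6 ∨ n = 7 ∨ n = 8) ∧ par = parE n ∧ sp = 0) ∨ (2 ≤ n ∧ par = parA ∧ sp = n - 1) ∨
    (n = 4 ∧ par = parA ∧ sp = 2)

/-- the renumbering `π` -/
def Ren (n : ℕ) (M : ℕ → ℕ → ℕ) (par : ℕ → ℕ) (sp : ℕ) (π : ℕ → ℕ) : Prop :=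
  ∀ a < n, π a < n ∧ ∀ b < n, M (π a) (π b) = tmN par sp a b

/-- `M` is of known type -/
def Kn (n : ℕ) (M : ℕ → ℕ → ℕ) : Prop := ∃ par sp, TypN n par sp ∧ ∃ π, Ren n M par sp π

variable {n a0 : ℕ} {M : ℕ → ℕ → ℕ} {β : ℕ → ℕ → ℝ}

theorem knA (π : ℕ → ℕ) (h : Ren (n + 1) M parA 0 π) : Kn (n + 1) M :=
  ⟨_, _, .inl ⟨by omega, rfl, rfl⟩, π, h⟩

theorem knD (π : ℕ → ℕ) (hn : 3 ≤ n) (h : Ren (n + 1) M (parD (n + 1)) 0 π) : Kn (n + 1) M :=
  ⟨_, _, .inr (.inl ⟨by omega, rfl, rfl⟩), π, h⟩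

theorem knE (π : ℕ → ℕ) (hn : 5 ≤ n ∧ n ≤ 7) (h : Ren (n + 1) M (parE (n + 1)) 0 π) :
    Kn (n + 1) M :=
  ⟨_, _, .inr (.inr (.inl ⟨by omega, rfl, rfl⟩)), π, h⟩

theorem knB (π : ℕ → ℕ) (hn : 1 ≤ n) (h : Ren (n + 1) M parA n π) : Kn (n + 1) M :=
  ⟨_, _, .inr (.inr (.inr (.inl ⟨by omega, rfl, rfl⟩))), π, h⟩

theorem knF (π : ℕ → ℕ) (h : Ren 4 M parA 2 π) : Kn 4 M :=
  ⟨_, _, .inr (.inr (.inr (.inr ⟨rfl, rfl, rfl⟩))), π, h⟩

theorem stepA3 (h0 : a0 < n) (G : Gr (n + 1) (Mx n parA 0 a0 3) β) :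
    Kn (n + 1) (Mx n parA 0 a0 3) := by
  by_cases h1 : a0 = n - 1
  · exact knA (fun a => a) (by unfold Ren Mx tmN parA; grind (splits := 60))
  by_cases h2 : a0 = 0
  · exact knA (fun a => if a = 0 then n else a - 1) (by unfold Ren Mx tmN parA; grind (splits := 60))
  by_cases h3 : a0 = n - 2
  · exact knD (fun a => a) (by omega) (by unfold Ren Mx tmN parA parD; grind (splits := 60))
  by_cases h4 : a0 = 1
  · exact knD (fun a => if a = n then n else n - 1 - a) (by omega)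
      (by unfold Ren Mx tmN parA parD; grind (splits := 60))
  by_cases h5 : a0 = 2
  · by_cases h : n ≤ 7
    · exact knE (fun a => a) (by omega) (by unfold Ren Mx tmN parA parE; grind (splits := 60))
    · exact (G.e8 (fun b => if b = 8 then n else b) (by grind)
        (by unfold Mx tmN parA; grind (splits := 60))).elim
  by_cases h6 : a0 = n - 3
  · by_cases h : n ≤ 7
    · exact knE (fun a => if a = n then n else n - 1 - a) (by omega)
        (by unfold Ren Mx tmN parA parE; grind (splits := 60))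
    · exact (G.e8 (fun b => if b = 8 then n else n - 1 - b) (by grind)
        (by unfold Mx tmN parA; grind (splits := 60))).elim
  exact (G.e7 (fun b => if b = 7 then n else a0 - 3 + b) (by grind)
    (by unfold Mx tmN parA; grind (splits := 60))).elim

theorem stepA4 (h0 : a0 < n) (G : Gr (n + 1) (Mx n parA 0 a0 4) β) :
    Kn (n + 1) (Mx n parA 0 a0 4) := by
  by_cases h1 : a0 = n - 1
  · exact knB (fun a => a) (by omega) (by unfold Ren Mx tmN parA; grind (splits := 60))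
  by_cases h2 : a0 = 0
  · exact knB (fun a => if a = n then n else n - 1 - a) (by omega)
      (by unfold Ren Mx tmN parA; grind (splits := 60))
  refine (G.s334 a0 a0 a0 a0 (a0 - 1) a0 (a0 + 1) a0 n ?_ ?_ ?_ ?_ (by omega)).elim <;>
    simp only [Pth, Cp, IE, Mx, tmN, parA] <;> grind (splits := 60)

theorem stepB3 (hn : 2 ≤ n) (h0 : a0 < n) (G : Gr (n + 1) (Mx n parA (n - 1) a0 3) β) :
    Kn (n + 1) (Mx n parA (n - 1) a0 3) := by
  by_cases h2 : a0 = 0
  · exact knB (fun a => if a = 0 then n else a - 1) (by omega)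
      (by unfold Ren Mx tmN parA; grind (splits := 60))
  by_cases h1 : a0 = n - 1
  · by_cases h3 : n = 2
    · exact knB (fun a => n - a) (by omega) (by unfold Ren Mx tmN parA; grind (splits := 60))
    by_cases h4 : n = 3
    · subst h4
      exact knF (fun a => a) (by unfold Ren Mx tmN parA; grind (splits := 60))
    exact (G.f4 (fun b => n - 4 + b) (by grind)
      (by unfold Mx tmN parA; grind (splits := 60))).elim
  refine (G.s334 a0 (n - 2) a0 a0 (a0 - 1) a0 n (n - 2) (n - 1) ?_ ?_ ?_ ?_ (by omega)).elim <;>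
    simp only [Pth, Cp, IE, Mx, tmN, parA] <;> grind (splits := 60)

theorem stepB4 (hn : 2 ≤ n) (h0 : a0 < n) (G : Gr (n + 1) (Mx n parA (n - 1) a0 4) β) : False := by
  by_cases h1 : a0 = n - 1
  · refine G.s44 a0 a0 a0 a0 (n - 2) a0 n ?_ ?_ ?_ (by omega) <;>
      simp only [Pth, Cp, IE, Mx, tmN, parA] <;> grind (splits := 60)
  · refine G.s44 0 (n - 2) 0 (n - 2) (n - 1) a0 n ?_ ?_ ?_ (by omega) <;>
      simp only [Pth, Cp, IE, Mx, tmN, parA] <;> grind (splits := 60)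

theorem stepF {l : ℕ} (hl : 3 ≤ l) (h0 : a0 < 4) (G : Gr (4 + 1) (Mx 4 parA 2 a0 l) β) : False := by
  by_cases h1 : a0 = 0
  · exact G.f4 (fun b => if b = 0 then 4 else b - 1) (by grind)
      (by unfold Mx tmN parA; grind (splits := 60))
  by_cases h2 : a0 = 3
  · exact G.f4 (fun b => 4 - b) (by grind) (by unfold Mx tmN parA; grind (splits := 60))
  by_cases h3 : a0 = 1
  · refine G.s334 1 1 1 1 0 1 4 1 2 ?_ ?_ ?_ ?_ (by omega) <;>
      simp only [Pth, Cp, IE, Mx, tmN, parA] <;> grind (splits := 60)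
  · refine G.s334 2 2 2 2 3 2 4 2 1 ?_ ?_ ?_ ?_ (by omega) <;>
      simp only [Pth, Cp, IE, Mx, tmN, parA] <;> grind (splits := 60)

theorem stepD4 (hn : 4 ≤ n) (h0 : a0 < n) (G : Gr (n + 1) (Mx n (parD n) 0 a0 4) β) : False := by
  by_cases h1 : a0 = n - 1
  · refine G.s334 (n - 3) (n - 3) (n - 1) (n - 3) (n - 4) (n - 3) (n - 2) a0 n ?_ ?_ ?_ ?_
      (by omega) <;> simp only [Pth, Cp, IE, Mx, tmN, parD] <;> grind (splits := 60)
  by_cases h2 : a0 = n - 2
  · refine G.s334 (n - 3) (n - 2) (n - 3) (n - 3) (n - 4) (n - 3) (n - 1) a0 n ?_ ?_ ?_ ?_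
      (by omega) <;> simp only [Pth, Cp, IE, Mx, tmN, parD] <;> grind (splits := 60)
  · refine G.s334 0 (n - 3) 0 (n - 3) (n - 2) (n - 3) (n - 1) a0 n ?_ ?_ ?_ ?_
      (by omega) <;> simp only [Pth, Cp, IE, Mx, tmN, parD] <;> grind (splits := 60)

theorem stepD3 (hn : 4 ≤ n) (h0 : a0 < n) (G : Gr (n + 1) (Mx n (parD n) 0 a0 3) β) :
    Kn (n + 1) (Mx n (parD n) 0 a0 3) := by
  by_cases h1 : a0 = 0
  · exact knD (fun a => if a = 0 then n else a - 1) (by omega)
      (by unfold Ren Mx tmN parD; grind (splits := 60))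
  by_cases h2 : a0 = n - 2
  · by_cases h4 : n = 4
    · exact knD (fun a => if a = 0 then n else if a = n then n - 1 else n - 1 - a) (by omega)
        (by unfold Ren Mx tmN parD; grind (splits := 60))
    by_cases h : n ≤ 7
    · exact knE (fun a => if a = 0 then n else if a = n then n - 1 else n - 1 - a) (by omega)
        (by unfold Ren Mx tmN parD parE; grind (splits := 60))
    · exact (G.e8 (fun b => if b = 0 then n else if b = 8 then n - 1 else n - 1 - b) (by grind)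
        (by unfold Mx tmN parD; grind (splits := 60))).elim
  by_cases h3 : a0 = n - 1
  · by_cases h4 : n = 4
    · exact knD (fun a => if a = 0 then n else if a = 1 then n - 1 else if a = n then n - 2 else
        n - 1 - a) (by omega) (by unfold Ren Mx tmN parD; grind (splits := 60))
    by_cases h : n ≤ 7
    · exact knE (fun a => if a = 0 then n else if a = 1 then n - 1 else if a = n then n - 2 else
        n - 1 - a) (by omega) (by unfold Ren Mx tmN parD parE; grind (splits := 60))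
    · exact (G.e8 (fun b => if b = 0 then n else if b = 1 then n - 1 else if b = 8 then n - 2 else
        n - 1 - b) (by grind) (by unfold Mx tmN parD; grind (splits := 60))).elim
  refine (G.s3333 a0 (n - 3) a0 a0 (a0 - 1) a0 n (n - 3) (n - 2) (n - 3) (n - 1) ?_ ?_ ?_ ?_ ?_
    (by omega)).elim <;> simp only [Pth, Cp, IE, Mx, tmN, parD] <;> grind (splits := 60)

theorem stepE4 (hn : 6 ≤ n) (h0 : a0 < n) (G : Gr (n + 1) (Mx n (parE n) 0 a0 4) β) : False := by
  by_cases h1 : a0 = n - 1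
  · refine G.s334 2 2 (n - 1) 2 1 2 3 a0 n ?_ ?_ ?_ ?_
      (by omega) <;> simp only [Pth, Cp, IE, Mx, tmN, parE] <;> grind (splits := 60)
  by_cases h2 : a0 ≤ 2
  · refine G.s334 a0 2 a0 2 3 2 (n - 1) a0 n ?_ ?_ ?_ ?_
      (by omega) <;> simp only [Pth, Cp, IE, Mx, tmN, parE] <;> grind (splits := 60)
  · refine G.s334 2 a0 2 2 1 2 (n - 1) a0 n ?_ ?_ ?_ ?_
      (by omega) <;> simp only [Pth, Cp, IE, Mx, tmN, parE] <;> grind (splits := 60)

theorem stepE3 (hn : n = 6 ∨ n = 7 ∨ n = 8) (h0 : a0 < n)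
    (G : Gr (n + 1) (Mx n (parE n) 0 a0 3) β) : Kn (n + 1) (Mx n (parE n) 0 a0 3) := by
  by_cases h1 : a0 = n - 1
  · exact (G.e6 (fun b => if b = 5 then n - 1 else if b = 6 then n else b) (by grind)
      (by unfold Mx tmN parE; grind (splits := 60))).elim
  by_cases h2 : a0 = n - 2
  · by_cases h : n ≤ 7
    · exact knE (fun a => if a = n then n - 1 else if a = n - 1 then n else a) (by omega)
        (by unfold Ren Mx tmN parE; grind (splits := 60))
    · exact (G.e8 (fun b => if b = n then n - 1 else if b = n - 1 then n else b) (by grind)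
        (by unfold Mx tmN parE; grind (splits := 60))).elim
  by_cases h3 : a0 = 0
  · by_cases h : n = 6
    · exact knE (fun a => if a = 5 then 6 else if a = 6 then 5 else 4 - a) (by omega)
        (by unfold Ren Mx tmN parE; grind (splits := 60))
    · exact (G.e7 (fun b => if b = 0 then n else if b = 7 then n - 1 else b - 1) (by grind)
        (by unfold Mx tmN parE; grind (splits := 60))).elim
  by_cases h4 : a0 = 1
  · refine (G.s3333 1 2 1 1 0 1 n 2 3 2 (n - 1) ?_ ?_ ?_ ?_ ?_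
      (by omega)).elim <;> simp only [Pth, Cp, IE, Mx, tmN, parE] <;> grind (splits := 60)
  · refine (G.s3333 2 a0 2 2 1 2 (n - 1) a0 (a0 + 1) a0 n ?_ ?_ ?_ ?_ ?_
      (by omega)).elim <;> simp only [Pth, Cp, IE, Mx, tmN, parE] <;> grind (splits := 60)

theorem stepT {par : ℕ → ℕ} {sp l : ℕ} (T : TypN n par sp) (hl : l = 3 ∨ l = 4) (h0 : a0 < n)
    (G : Gr (n + 1) (Mx n par sp a0 l) β) : Kn (n + 1) (Mx n par sp a0 l) := by
  rcases T with ⟨h, rfl, rfl⟩ | ⟨h, rfl, rfl⟩ | ⟨h, rfl, rfl⟩ | ⟨h, rfl, rfl⟩ | ⟨rfl, rfl, rfl⟩ <;>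
    rcases hl with rfl | rfl
  exacts [stepA3 h0 G, stepA4 h0 G, stepD3 h h0 G, (stepD4 h h0 G).elim, stepE3 h h0 G,
    (stepE4 (by omega) h0 G).elim, stepB3 h h0 G, (stepB4 h h0 G).elim,
    (stepF le_rfl h0 G).elim, (stepF (by norm_num) h0 G).elim]

theorem TypN.par_lt {par : ℕ → ℕ} {sp : ℕ} (T : TypN n par sp) {b : ℕ} (h0 : 0 < b) :
    par b < b := by
  rcases T with ⟨h, rfl, rfl⟩ | ⟨h, rfl, rfl⟩ | ⟨h, rfl, rfl⟩ | ⟨h, rfl, rfl⟩ | ⟨rfl, rfl, rfl⟩ <;>
    simp only [parA, parD, parE] <;> grind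

end Cfsg.Agent.H57.T3Cls
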