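import Cfsg.Agent.H74.UVDefs

/-! Project UV: the determinant on a free module of a subgroup is a sign. -/

set_option autoImplicit false

namespace Cfsg.Agent.H57.UvPerm

open Module

universe u

theorem perm : Cfsg.Agent.H74.UV.PermStmt.{u} := by
  intro E V A _ _ _ _ _ _ _ ρ H W hW h hh
  classical
  haveI := Fintype.ofFinite H
  have inj : ∀ a : A, Function.Injective (ρ a) := fun a =>
    Function.LeftInverse.injective (g := ρ a⁻¹) fun x => by simp
  let b := Module.finBasis E W
  let B := hW.collectedBasis fun k : H => b.map (Submodule.equivMapOfInjective (ρ (k : A)) (inj k) W)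
  have hB : ∀ (k : H) (i : Fin (finrank E W)), B ⟨k, i⟩ = ρ (k : A) (b i) := fun k i => by
    simp [B, DirectSum.IsInternal.collectedBasis_coe]
  let σ : Equiv.Perm (Σ _ : H, Fin (finrank E W)) :=
    Equiv.sigmaCongrLeft (β := fun _ => Fin (finrank E W)) (Equiv.mulLeft (⟨h, hh⟩ : H))
  have e : ρ h ∘ B = B ∘ σ := by
    funext ⟨k, i⟩
    change ρ h (B ⟨k, i⟩) = B ⟨⟨h, hh⟩ * k, i⟩
    rw [hB, hB, Subgroup.coe_mul, map_mul, Module.End.mul_apply]
  have h1 := B.det_comp (ρ h) B
  rw [e, AlternatingMap.map_perm, B.det_self, mul_one] at h1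
  rw [← h1]
  rcases Int.units_eq_one_or (Equiv.Perm.sign σ) with k | k <;> simp [k]

end Cfsg.Agent.H57.UvPerm
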