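import Cfsg.Agent.H74.UVDefs

/-! Project UV, piece Q2: transitivity on vectors of norm one for `q = 2`. -/

set_option autoImplicit false
set_option linter.unusedSectionVars false

namespace Cfsg.Agent.H57.UvQ2

open Cfsg Module Finset Cfsg.Agent.H31 Cfsg.Agent.H77.Sg Cfsg.Agent.H74.UV

universe u

theorem num0 : ∀ n < 1025, ∀ b < 20, n * n + 682 * (b * b) = 1024 * n → n = 0 ∨ n = 1024 := by
  decide +kernel

theorem num (n : ℕ) (a : ℤ) (hn : 0 < n)
    (h : (n : ℤ) ^ 2 + 2048 * n = 3 * n ^ 2 + 682 * (a ^ 2 + a ^ 2)) : n = 1024 := by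
  have h1 : n ≤ 1024 := by nlinarith [sq_nonneg a]
  have h2 : a ^ 2 ≤ 385 := by nlinarith [sq_nonneg ((n : ℤ) - 512)]
  have h3 : a.natAbs < 20 := by
    have : -20 < a := by nlinarith
    have : a < 20 := by nlinarith
    omega
  refine (num0 n (by omega) _ h3 ?_).resolve_left hn.ne'
  have h4 := Int.natAbs_mul_self' a
  zify
  rw [← Int.natCast_natAbs]
  nlinarith

variable {E K : Type u} [Field E] [Fintype E] [Field K] [Algebra E K] [Fintype K] [DecidableEq K]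
  {σ : E →+* E} {B : K →ₛₗ[σ] K →ₗ[E] E} {G : Subgroup (K ≃ₗ[E] K)} {ψ : AddChar E ℂ}
  {I : Finset (Ch K 2)} {h : Ch K 2 → Kˣ → ℂ}

theorem char2 (hC : Cu B 2 1 683 G) : CharP E 2 ∧ CharP K 2 := by
  obtain ⟨p, f, hp, h1, h2, hf, e⟩ := hC.pp
  have : p = 2 := (Nat.prime_dvd_prime_iff_eq hp Nat.prime_two).1 (e ▸ dvd_pow_self p hf.ne')
  subst this
  exact ⟨h1, h2⟩

theorem psi_sq (hC : Cu B 2 1 683 G) (a : E) : ψ a * ψ a = 1 := by
  have := (char2 hC).1
  rw [← AddChar.map_add_eq_mul, CharTwo.add_self_eq_zero, AddChar.map_zero_eq_one]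

theorem psi_one (hC : Cu B 2 1 683 G) (hF : Fn B 2 683 G ψ I h) : ψ 1 = -1 := by
  have := (char2 hC).1
  obtain ⟨a, h1, h2⟩ := hF.sk
  rw [hC.st.pow] at h1
  have h3 : a = 1 := by
    have : a * (a + 1) = 0 := by linear_combination h1
    rcases mul_eq_zero.1 this with e | e
    · exact absurd (by rw [e, AddChar.map_zero_eq_one]) h2
    · exact (CharTwo.add_eq_zero.1 e)
  rw [h3] at h2
  exact (mul_self_eq_one_iff.1 (psi_sq hC 1)).resolve_left h2

theorem form_self (hC : Cu B 2 1 683 G) (u : K) :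
    B u u = Algebra.trace E K (u ^ (2 ^ 11 + 1)) := by rw [hC.form, pow_succ u]

/-- The torus is the product of its two parts. -/
noncomputable def mm (hC : Cu B 2 1 683 G) (x : Rt K (2 + 1) × Rt K 683) : Rt K (2 ^ 11 + 1) :=
  ⟨x.1 * x.2, mul_mem (hC.ZT x.1.2) (hC.PT x.2.2)⟩

theorem mm_bij (hC : Cu B 2 1 683 G) : Function.Bijective (mm hC) := by
  refine (Nat.bijective_iff_injective_and_card _).2 ⟨fun x y e => ?_, ?_⟩
  · have e1 : (x.1 : Kˣ) * x.2 = y.1 * y.2 := congrArg Subtype.val e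
    have e2 : ((y.1 : Kˣ))⁻¹ * x.1 = y.2 * (x.2 : Kˣ)⁻¹ := by
      rw [inv_mul_eq_iff_eq_mul, ← mul_assoc, ← e1, mul_inv_cancel_right]
    have e3 := hC.ZP _ (mul_mem (inv_mem y.1.2) x.1.2) (e2 ▸ mul_mem y.2.2 (inv_mem x.2.2))
    refine Prod.ext (Subtype.ext (inv_mul_eq_one.1 e3).symm) (Subtype.ext ?_)
    exact (mul_inv_eq_one.1 (e2 ▸ e3)).symm
  · rw [Nat.card_prod, hC.cardZ, hC.cardP, hC.cardT]; rfl

theorem T_le (hC : Cu B 2 1 683 G) {s : Kˣ} (hs : s ∈ Rt K (2 ^ 11 + 1)) : mulH E K s ∈ G := by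
  obtain ⟨x, e⟩ := (mm_bij hC).2 ⟨s, hs⟩
  exact (hC.mem s).2 ⟨x.1, x.1.2, x.2, x.2.2, (congrArg Subtype.val e).symm⟩

theorem exists_T {u w : K} (hu : u ≠ 0) (e : w ^ (2 ^ 11 + 1) = u ^ (2 ^ 11 + 1)) :
    ∃ s ∈ Rt K (2 ^ 11 + 1), w = s * u := by
  have hw : w ≠ 0 := fun h0 => pow_ne_zero _ hu (by rw [← e, h0]; simp)
  refine ⟨Units.mk0 (w / u) (div_ne_zero hw hu), Units.ext ?_, by simp [hu]⟩
  change (w / u) ^ (2 ^ 11 + 1) = 1
  rw [div_pow, e, div_self (pow_ne_zero _ hu)]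

theorem pow_T {s : Kˣ} (hs : s ∈ Rt K (2 ^ 11 + 1)) : (s : K) ^ (2 ^ 11 + 1) = 1 :=
  congrArg Units.val (show s ^ (2 ^ 11 + 1) = 1 from hs)

/-- The sum over the torus. -/
theorem sum_T (hC : Cu B 2 1 683 G) [Fintype (Rt K (2 ^ 11 + 1))] (F : K → ℂ) :
    ∑ s : Rt K (2 ^ 11 + 1), F (kap s.1) =
      F 0 + ∑ x ∈ univ.filter fun x : K => x + x ^ 2 ^ 11 = 1, F x := by
  classical
  rw [← add_sum_erase _ _ (mem_univ 1)]
  congr 1
  · simp [kap]
  · refine sum_nbij (fun s => kap s.1) (fun s hs => ?_) (fun s hs s' hs' e => ?_)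
      (fun x hx => ?_) fun _ _ => rfl
    · exact mem_filter.2 ⟨mem_univ _, hC.kapT _ s.2 fun e =>
        ne_of_mem_erase hs (Subtype.ext e)⟩
    · exact Subtype.ext (hC.kapI _ _ (fun e => ne_of_mem_erase hs (Subtype.ext e))
        (fun e => ne_of_mem_erase hs' (Subtype.ext e)) e)
    · obtain ⟨s, hs, s1, e⟩ := hC.kapS x (mem_filter.1 hx).2
      exact ⟨⟨s, hs⟩, mem_erase.2 ⟨fun e => s1 (congrArg Subtype.val e), mem_univ _⟩, e⟩

theorem kap_inv (hC : Cu B 2 1 683 G) {s : Kˣ} (hs : s ≠ 1) : kap s⁻¹ = kap s + 1 := by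
  have := (char2 hC).2
  have h1 : (s : K) - 1 ≠ 0 := sub_ne_zero.2 fun e => hs (Units.ext e)
  have h2 : (s : K)⁻¹ - 1 ≠ 0 := sub_ne_zero.2 fun e => hs (Units.ext (inv_eq_one.1 e))
  have h3 : (2 : K) = 0 := CharTwo.two_eq_zero
  have h4 : (1 : K) - s ≠ 0 := fun e => h1 (by linear_combination -e)
  rw [kap, kap, Units.val_inv_eq_inv_val]
  have h0 := s.ne_zero
  field_simp
  linear_combination (s * (s - 1) : K) * h3

theorem key (hC : Cu B 2 1 683 G) (hF : Fn B 2 683 G ψ I h) (O : Finset K)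
    (h1 : ∀ u ∈ O, B u u = 1) (hG : ∀ g ∈ G, ∀ u, g u ∈ O ↔ u ∈ O) (hne : O.Nonempty) :
    #(O.image fun u => u ^ (2 ^ 11 + 1)) = 1024 := by
  classical
  have c2 := (char2 hC).2
  let _ : Fintype (Rt K (2 ^ 11 + 1)) := Fintype.ofFinite _
  let _ : Fintype (Rt K (2 + 1)) := Fintype.ofFinite _
  let _ : Fintype (Rt K 683) := Fintype.ofFinite _
  obtain ⟨τ, hτ, hττ, -⟩ := hC.bar
  set A := O.image fun u => u ^ (2 ^ 11 + 1) with hA
  let χ : K → ℂ := fun x => ψ (Algebra.trace E K x)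
  have χa : ∀ x y, χ (x + y) = χ x * χ y := fun x y => by
    simp only [χ, map_add, AddChar.map_add_eq_mul]
  have Atr : ∀ y ∈ A, Algebra.trace E K y = 1 := fun y hy => by
    obtain ⟨u, hu, rfl⟩ := mem_image.1 hy
    rw [← form_self hC, h1 u hu]
  have Aχ : ∀ y ∈ A, χ y = -1 := fun y hy => by simp only [χ, Atr y hy, psi_one hC hF]
  have Aτ : ∀ y ∈ A, τ y = y := fun y hy => by
    obtain ⟨u, -, rfl⟩ := mem_image.1 hy
    rw [pow_succ, ← hτ, map_mul, hττ, mul_comm]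
  let g : K → ℂ := fun x => ∑ y ∈ A, χ (y * x)
  have gint : ∀ x, ∃ a : ℤ, g x = a := fun x => by
    refine sum_induction _ (fun c : ℂ => ∃ a : ℤ, c = a) ?_ ⟨0, by simp⟩ fun y _ => ?_
    · rintro _ _ ⟨a, rfl⟩ ⟨b, rfl⟩
      exact ⟨a + b, by simp⟩
    · rcases mul_self_eq_one_iff.1 (psi_sq (ψ := ψ) hC (Algebra.trace E K (y * x))) with e | e
      exacts [⟨1, by simpa using e⟩, ⟨-1, by simpa using e⟩]
  have g1 : ∀ x, g (x + 1) = -g x := fun x => by
    simp only [g, ← sum_neg_distrib]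
    exact sum_congr rfl fun y hy => by rw [mul_add, χa, mul_one, Aχ y hy, mul_neg_one]
  have gE : ∀ c : E, g (algebraMap E K c) ^ 2 = (#A : ℂ) ^ 2 := fun c => by
    have : g (algebraMap E K c) = #A * ψ c := by
      simp only [g]
      rw [sum_congr rfl fun y hy => show χ (y * algebraMap E K c) = ψ c by
        simp only [χ]
        rw [mul_comm, ← Algebra.smul_def, map_smul, Atr y hy, smul_eq_mul, mul_one],
        sum_const, nsmul_eq_mul]
    rw [this, mul_pow, sq (ψ c), psi_sq hC, mul_one]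
  -- the transform of the indicator function
  have hTh : ∀ x, Th 2 ψ (fun u => if u ∈ O then 1 else 0) x = 2049 * g x := fun x => by
    simp only [Th, finsum_eq_sum_of_fintype, ite_mul, one_mul, zero_mul, sum_ite_mem, univ_inter]
    rw [sum_comp (fun y => ψ (Algebra.trace E K (y * x))) fun u : K => u ^ (2 ^ 11 + 1), mul_sum]
    refine sum_congr rfl fun y hy => ?_
    obtain ⟨u, hu, rfl⟩ := mem_image.1 hy
    have u0 : u ≠ 0 := fun e => by simpa [e] using h1 u hu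
    have : #(univ : Finset (Rt K (2 ^ 11 + 1))) =
        #{a ∈ O | a ^ (2 ^ 11 + 1) = u ^ (2 ^ 11 + 1)} := by
      refine card_nbij (fun s => (s.1 : K) * u) (fun s _ => ?_) (fun s _ s' _ e => ?_)
        fun w hw => ?_
      · exact mem_filter.2 ⟨(hG _ (T_le hC s.2) u).2 hu, by rw [mul_pow, pow_T s.2, one_mul]⟩
      · exact Subtype.ext (Units.ext (mul_right_cancel₀ u0 e))
      · obtain ⟨s, hs, e⟩ := exists_T u0 (mem_filter.1 hw).2
        exact ⟨⟨s, hs⟩, mem_univ _, e.symm⟩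
    rw [← this, card_univ, ← Nat.card_eq_fintype_card, hC.cardT, nsmul_eq_mul]
    norm_num [χ]
  obtain ⟨c₀, c, hc⟩ := hF.sp (fun u => if u ∈ O then 1 else 0) fun k hk u => by
    simp only [hG k hk u]
  have gz : ∀ (z : Rt K (2 + 1)) (p : Rt K 683), p ≠ 1 →
      2049 * g (kap (z.1 * p.1)) = c₀ + ∑ ν ∈ I, c ν * ν z := fun z p hp => by
    rw [← hTh, hc _ (mul_mem (hC.ZT z.2) (hC.PT p.2)) fun hz => hp (Subtype.ext
      (hC.ZP _ ((mul_mem_cancel_left z.2).1 hz) p.2))]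
    congr 1
    refine sum_congr rfl fun ν hν => ?_
    have := hF.hp ν hν p p.2 1 (one_mem _)
    rw [hF.hz ν hν z p (hC.PT p.2), ← mul_one p.1, this, hF.h1 ν hν, mul_one]
  have gz' : ∀ (z : Rt K (2 + 1)) (p p' : Rt K 683), p ≠ 1 → p' ≠ 1 →
      g (kap (z.1 * p.1)) = g (kap (z.1 * p'.1)) := fun z p p' hp hp' =>
    mul_left_cancel₀ (by norm_num : (2049 : ℂ) ≠ 0) ((gz z p hp).trans (gz z p' hp').symm)
  have cP : Fintype.card (Rt K 683) = 683 := by rw [← Nat.card_eq_fintype_card, hC.cardP]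
  have cZ : Fintype.card (Rt K (2 + 1)) = 3 := by rw [← Nat.card_eq_fintype_card, hC.cardZ]
  have : Nontrivial (Rt K 683) := Fintype.one_lt_card_iff_nontrivial.1 (by rw [cP]; norm_num)
  have : Nontrivial (Rt K (2 + 1)) := Fintype.one_lt_card_iff_nontrivial.1 (by rw [cZ]; norm_num)
  obtain ⟨p₀, hp₀⟩ := exists_ne (1 : Rt K 683)
  obtain ⟨z₀, hz₀⟩ := exists_ne (1 : Rt K (2 + 1))
  have ginv : ∀ z : Rt K (2 + 1), g (kap (z⁻¹.1 * p₀.1)) = -g (kap (z.1 * p₀.1)) := fun z => by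
    have hne : z.1 * p₀.1 ≠ 1 := fun e => hp₀ (Subtype.ext
      (hC.ZP _ ((mul_mem_cancel_left z.2).1 (by rw [e]; exact one_mem _)) p₀.2))
    rw [gz' _ p₀ p₀⁻¹ hp₀ (inv_ne_one.2 hp₀), ← g1, ← kap_inv hC hne, mul_inv]
    rfl
  have gone : g (kap ((1 : Rt K (2 + 1)).1 * p₀.1)) = 0 := by
    have := ginv 1
    rw [inv_one] at this
    linear_combination this / 2
  have hZ : (univ : Finset (Rt K (2 + 1))) = {1, z₀, z₀⁻¹} := by
    have z3 : z₀ ^ 3 = 1 := by rw [← cZ, pow_card_eq_one]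
    have z2 : z₀ ≠ z₀⁻¹ := fun e => hz₀ (by
      rw [← z3, pow_three, mul_eq_one_iff_eq_inv.2 e, mul_one])
    refine (eq_univ_of_card _ ?_).symm
    rw [cZ, card_eq_three]
    exact ⟨_, _, _, hz₀.symm, (inv_ne_one.2 hz₀).symm, z2, rfl⟩
  have z2 : z₀ ≠ z₀⁻¹ := fun e => by
    have := congrArg card hZ
    rw [card_univ, cZ, ← e] at this
    simp only [mem_singleton, insert_eq_of_mem] at this
    exact absurd (this.le.trans card_le_two) (by norm_num)
  -- the sum over the torus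
  have S1 : ∑ s : Rt K (2 ^ 11 + 1), g (kap s.1) ^ 2 = 3 * (#A : ℂ) ^ 2 +
      682 * (g (kap (z₀.1 * p₀.1)) ^ 2 + g (kap (z₀.1 * p₀.1)) ^ 2) := by
    rw [← (mm_bij hC).sum_comp fun s => g (kap s.1) ^ 2, Fintype.sum_prod_type]
    have : ∀ z : Rt K (2 + 1), ∑ p : Rt K 683, g (kap (mm hC (z, p)).1) ^ 2 =
        (#A : ℂ) ^ 2 + 682 * g (kap (z.1 * p₀.1)) ^ 2 := fun z => by
      rw [← add_sum_erase _ _ (mem_univ 1), sum_congr rfl fun p hp =>
        show g (kap (mm hC (z, p)).1) ^ 2 = g (kap (z.1 * p₀.1)) ^ 2 from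
          congrArg (· ^ 2) (gz' z p p₀ (ne_of_mem_erase hp) hp₀), sum_const,
        card_erase_of_mem (mem_univ _), card_univ, cP, nsmul_eq_mul]
      congr 1
      obtain ⟨c, -, e⟩ := hC.zE z z.2
      have : kap (mm hC (z, 1)).1 = algebraMap E K (c / (c - 1)) := by
        simp [kap, mm, e]
      rw [this, gE]
    rw [sum_congr rfl fun z _ => this z, hZ, sum_insert (by simp [hz₀.symm, hz₀]),
      sum_pair z2, gone, ginv]
    ring
  set X := univ.filter fun x : K => x + x ^ 2 ^ 11 = 1 with hX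
  have cX : (#X : ℂ) = 2048 := by
    have := sum_T hC fun _ => 1
    rw [sum_const, sum_const, card_univ, ← Nat.card_eq_fintype_card, hC.cardT] at this
    norm_num at this
    linear_combination -this
  obtain ⟨u₀, hu₀⟩ := hne
  have hy₀ : u₀ ^ (2 ^ 11 + 1) ∈ A := mem_image_of_mem _ hu₀
  have orth : ∀ y ∈ A, ∀ y' ∈ A, ∑ x ∈ X, χ (y * x) * χ (y' * x) = if y = y' then 2048 else 0 :=
    fun y hy y' hy' => by
    split_ifs with e
    · rw [← e, sum_congr rfl fun x _ => psi_sq hC _, sum_const, nsmul_eq_mul, cX, mul_one]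
    · have w0 : y + y' ≠ 0 := fun e' => e (CharTwo.add_eq_zero.1 e')
      set d := u₀ ^ (2 ^ 11 + 1) / (y + y') with hd
      have τd : τ d = d := by rw [hd, map_div₀, map_add, Aτ _ hy₀, Aτ _ hy, Aτ _ hy']
      have e1 : ∑ x ∈ X, χ (y * (x + d)) * χ (y' * (x + d)) =
          ∑ x ∈ X, χ (y * x) * χ (y' * x) := by
        refine sum_equiv (Equiv.addRight d) (fun x => ?_) fun _ _ => rfl
        simp only [hX, mem_filter, mem_univ, true_and, Equiv.coe_addRight, ← hτ, map_add, τd]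
        rw [add_add_add_comm, CharTwo.add_self_eq_zero, add_zero]
      have e2 : ∑ x ∈ X, χ (y * (x + d)) * χ (y' * (x + d)) =
          -∑ x ∈ X, χ (y * x) * χ (y' * x) := by
        rw [← sum_neg_distrib]
        refine sum_congr rfl fun x _ => ?_
        rw [mul_add, mul_add, χa, χa, mul_mul_mul_comm, ← χa (y * d), ← add_mul, hd,
          mul_div_cancel₀ _ w0, Aχ _ hy₀, mul_neg_one]
      linear_combination (e2 - e1) / 2
  have S2 : ∑ x ∈ X, g x ^ 2 = 2048 * #A := by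
    simp only [g, sq, sum_mul_sum]
    rw [sum_comm, sum_congr rfl fun y hy => (sum_comm.trans (sum_congr rfl (orth y hy))).trans
      ((sum_ite_eq A y fun _ => (2048 : ℂ)).trans (if_pos hy)), sum_const, nsmul_eq_mul, mul_comm]
  have S3 := sum_T hC fun x => g x ^ 2
  have g0 := gE 0
  rw [map_zero] at g0
  obtain ⟨a, ha⟩ := gint (kap (z₀.1 * p₀.1))
  rw [S1, S2, g0, ha] at S3
  exact num _ a (card_pos.2 ⟨_, hy₀⟩) (by exact_mod_cast S3.symm)

theorem q2 : Q2Stmt.{u} := by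
  intro E K _ _ _ _ _ σ B G ψ I h hC hF u v e hu
  classical
  let _ : Fintype K := Fintype.ofFinite K
  have b1 : B u u = 1 := by
    have := hC.st.herm.symm u u
    rw [hC.st.pow, sq] at this
    exact mul_left_cancel₀ hu (this.trans (mul_one _).symm)
  have hO : ∀ w ∈ univ.filter fun w : K => ∃ g ∈ G, g u = w, B w w = 1 := fun w hw => by
    obtain ⟨g, hg, rfl⟩ := (mem_filter.1 hw).2
    rw [hC.le hg, b1]
  have k1 := key hC hF _ hO (fun g hg w => by
    simp only [mem_filter, mem_univ, true_and]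
    refine ⟨fun ⟨k, hk, e⟩ => ⟨g⁻¹ * k, mul_mem (inv_mem hg) hk, ?_⟩,
      fun ⟨k, hk, e⟩ => ⟨g * k, mul_mem hg hk, by rw [LinearEquiv.mul_apply, e]⟩⟩
    rw [LinearEquiv.mul_apply, e]
    exact g.symm_apply_apply w) ⟨u, mem_filter.2 ⟨mem_univ _, 1, one_mem _, rfl⟩⟩
  have k2 := key hC hF (univ.filter fun w : K => B w w = 1) (fun w hw => (mem_filter.1 hw).2)
    (fun g hg w => by simp only [mem_filter, mem_univ, true_and, hC.le hg w w])
    ⟨u, mem_filter.2 ⟨mem_univ _, b1⟩⟩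
  have k3 := eq_of_subset_of_card_le (image_subset_image (f := fun u : K => u ^ (2 ^ 11 + 1))
    fun w hw => mem_filter.2 ⟨mem_univ _, hO w hw⟩) (k2.trans k1.symm).le
  have k4 := mem_image_of_mem (fun u : K => u ^ (2 ^ 11 + 1))
    (mem_filter.2 ⟨mem_univ v, e.symm.trans b1⟩ : v ∈ univ.filter fun w : K => B w w = 1)
  rw [← k3] at k4
  obtain ⟨w, hw, e'⟩ := mem_image.1 k4
  obtain ⟨s, hs, rfl⟩ := exists_T (fun e0 => by simpa [e0] using hO w hw) e'.symm
  obtain ⟨g, hg, rfl⟩ := (mem_filter.1 hw).2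
  exact ⟨mulH E K s * g, mul_mem (T_le hC hs) hg, rfl⟩

end Cfsg.Agent.H57.UvQ2
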